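import Mathlib
import Cfsg.Prelude.Def_Transfer

/-!
The quadratic form and alternating bilinear form of an extraspecial 2-group, pulled back along an additive
parametrisation of the group modulo its centre.
-/

set_option autoImplicit false

namespace Cfsg.Agent.Monster

open Cfsg

section

variable {Q : Type*} [Group Q]

theorem extraspecial_center_mem (hQ : IsExtraspecial 2 Q) (a b : Q) : a * b * a⁻¹ * b⁻¹ ∈ Subgroup.center Q := by
  rw [← hQ.1.2.2]
  exact Subgroup.commutator_mem_commutator (Subgroup.mem_top a) (Subgroup.mem_top b)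

theorem extraspecial_exists_gen (hQ : IsExtraspecial 2 Q) :
    ∃ ζ : Q, ζ ∈ Subgroup.center Q ∧ ζ ≠ 1 ∧ ζ * ζ = 1 ∧ ∀ x ∈ Subgroup.center Q, x = 1 ∨ x = ζ := by
  obtain ⟨u, v, huv, hall⟩ := Nat.card_eq_two_iff.1 hQ.2
  have h1 : (1 : Subgroup.center Q) ∈ ({u, v} : Set _) := hall ▸ Set.mem_univ _
  have key : ∀ ζ : Subgroup.center Q, ζ ≠ 1 → (∀ x : Subgroup.center Q, x = 1 ∨ x = ζ) →
      ∃ ζ : Q, ζ ∈ Subgroup.center Q ∧ ζ ≠ 1 ∧ ζ * ζ = 1 ∧ ∀ x ∈ Subgroup.center Q, x = 1 ∨ x = ζ := by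
    intro ζ hζ hx
    refine ⟨ζ, ζ.2, fun h => hζ (Subtype.ext h), ?_, fun x hxm => ?_⟩
    · rcases hx (ζ * ζ) with h | h
      · exact congrArg Subtype.val h
      · exact absurd (mul_eq_left.1 h) hζ
    · rcases hx ⟨x, hxm⟩ with h | h
      · exact Or.inl (congrArg Subtype.val h)
      · exact Or.inr (congrArg Subtype.val h)
  rcases h1 with h | h
  · refine key v (h ▸ huv.symm) fun x => ?_
    have : x ∈ ({u, v} : Set _) := hall ▸ Set.mem_univ _
    rcases this with rfl | rfl
    · exact Or.inl h.symm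
    · exact Or.inr rfl
  · refine key u (h ▸ huv) fun x => ?_
    have : x ∈ ({u, v} : Set _) := hall ▸ Set.mem_univ _
    rcases this with rfl | rfl
    · exact Or.inr rfl
    · exact Or.inl h.symm

theorem extraspecial_sq_mem_center (hQ : IsExtraspecial 2 Q) (a : Q) : a * a ∈ Subgroup.center Q := by
  obtain ⟨ζ, hζ, -, hζ2, hall⟩ := extraspecial_exists_gen hQ
  rw [Subgroup.mem_center_iff]
  intro b
  have hc := Subgroup.mem_center_iff.1 hζ
  rcases hall _ (extraspecial_center_mem hQ b a) with h | h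
  · have e : b * a = a * b := by
      calc b * a = b * a * b⁻¹ * a⁻¹ * (a * b) := by group
        _ = a * b := by rw [h, one_mul]
    rw [← mul_assoc, e, mul_assoc, e, mul_assoc]
  · have e : b * a = ζ * (a * b) := by
      calc b * a = b * a * b⁻¹ * a⁻¹ * (a * b) := by group
        _ = ζ * (a * b) := by rw [h]
    calc b * (a * a) = b * a * a := (mul_assoc _ _ _).symm
      _ = ζ * (a * b) * a := by rw [e]
      _ = ζ * (a * (b * a)) := by group
      _ = ζ * (a * (ζ * (a * b))) := by rw [e]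
      _ = ζ * ζ * (a * a * b) := by rw [← mul_assoc a ζ, hc a]; group
      _ = a * a * b := by rw [hζ2, one_mul]

theorem extraspecial_automorphism_fix (hQ : IsExtraspecial 2 Q) (φ : Q ≃* Q) {x : Q}
    (hx : x ∈ Subgroup.center Q) : φ x = x := by
  obtain ⟨ζ, hζ, hζ1, -, hall⟩ := extraspecial_exists_gen hQ
  rcases hall x hx with rfl | rfl
  · exact map_one φ
  · rcases hall (φ x) (by
      rw [Subgroup.mem_center_iff]
      intro g
      obtain ⟨g, rfl⟩ := φ.surjective g
      rw [← map_mul, ← map_mul, Subgroup.mem_center_iff.1 hx g]) with h | h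
    · exact absurd ((map_eq_one_iff φ φ.injective).1 h) hζ1
    · exact h

/-- The value in `ZMod 2` of a central element of a group whose centre has order 2. -/
noncomputable def centerVal (x : Q) : ZMod 2 :=
  haveI := Classical.propDecidable (x = 1)
  if x = 1 then 0 else 1

theorem centerVal_eq_zero_iff {x : Q} : centerVal x = 0 ↔ x = 1 := by
  unfold centerVal
  split <;> simp_all

theorem centerVal_mul (hQ : IsExtraspecial 2 Q) {x y : Q} (hx : x ∈ Subgroup.center Q)
    (hy : y ∈ Subgroup.center Q) : centerVal (x * y) = centerVal x + centerVal y := by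
  obtain ⟨ζ, -, hζ1, hζ2, hall⟩ := extraspecial_exists_gen hQ
  rcases hall x hx with rfl | rfl <;> rcases hall y hy with rfl | rfl <;>
    simp [centerVal, hζ1, hζ2] <;> decide

end

theorem exists_extraspecial_form {Q : Type*} [Group Q] (hQ : IsExtraspecial 2 Q) {L : Type*} [AddCommGroup L]
    (ψ : L → Q ⧸ Subgroup.center Q) (hadd : ∀ v w, ψ (v + w) = ψ v * ψ w) :
    ∃ (B : L →+ L →+ ZMod 2) (q : L → ZMod 2),
      (∀ v a, ψ v = QuotientGroup.mk a → (q v = 0 ↔ a ^ 2 = 1)) ∧
      (∀ v w a b, ψ v = QuotientGroup.mk a → ψ w = QuotientGroup.mk b → (B v w = 0 ↔ Commute a b)) ∧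
      (∀ v w, q (v + w) = q v + q w + B v w) ∧ (∀ v, B v v = 0) ∧ (∀ v w, B v w = B w v) ∧
      ((Function.Surjective ψ) → ∀ v, (∀ w, B v w = 0) → ψ v = 1) ∧
      ∀ (φ : Q ≃* Q) (g : L → L), (∀ v a, ψ v = QuotientGroup.mk a → ψ (g v) = QuotientGroup.mk (φ a)) →
        (∀ v w, B (g v) (g w) = B v w) ∧ ∀ v, q (g v) = q v := by
  let r : L → Q := fun v => (ψ v).out
  have hr : ∀ v, ψ v = QuotientGroup.mk (r v) := fun v => (QuotientGroup.out_eq' (ψ v)).symm
  have hrel : ∀ v a, ψ v = QuotientGroup.mk a → ∃ z ∈ Subgroup.center Q, a = r v * z := by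
    intro v a ha
    refine ⟨(r v)⁻¹ * a, QuotientGroup.eq.1 ((hr v).symm.trans ha), by group⟩
  have hcomm : ∀ {a b z w : Q}, z ∈ Subgroup.center Q → w ∈ Subgroup.center Q →
      (a * z) * (b * w) * (a * z)⁻¹ * (b * w)⁻¹ = a * b * a⁻¹ * b⁻¹ := by
    intro a b z w hz hw
    have hz' := Subgroup.mem_center_iff.1 hz
    have hw' := Subgroup.mem_center_iff.1 hw
    have e1 : (a * z) * (b * w) * (a * z)⁻¹ = a * b * a⁻¹ * w := by
      calc (a * z) * (b * w) * (a * z)⁻¹ = a * (z * (b * w) * z⁻¹) * a⁻¹ := by group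
        _ = a * (b * w) * a⁻¹ := by rw [← hz' (b * w)]; group
        _ = a * b * (w * a⁻¹) := by group
        _ = a * b * a⁻¹ * w := by rw [← hw' a⁻¹]; group
    rw [e1]
    group
  have hsq : ∀ {a z : Q}, z ∈ Subgroup.center Q → (a * z) * (a * z) = a * a := by
    intro a z hz
    obtain ⟨ζ, hζ, -, hζ2, hall⟩ := extraspecial_exists_gen hQ
    have hz2 : z * z = 1 := by
      rcases hall z hz with rfl | rfl
      · exact mul_one 1
      · exact hζ2
    calc (a * z) * (a * z) = a * (z * a) * z := by group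
      _ = a * a * (z * z) := by rw [← Subgroup.mem_center_iff.1 hz a]; group
      _ = a * a := by rw [hz2, mul_one]
  let β : L → L → ZMod 2 := fun v w => centerVal (r v * r w * (r v)⁻¹ * (r w)⁻¹)
  have hβ : ∀ v w a b, ψ v = QuotientGroup.mk a → ψ w = QuotientGroup.mk b →
      β v w = centerVal (a * b * a⁻¹ * b⁻¹) := by
    intro v w a b ha hb
    obtain ⟨z, hz, rfl⟩ := hrel v a ha
    obtain ⟨u, hu, rfl⟩ := hrel w b hb
    rw [hcomm hz hu]
  have hmul : ∀ v w, ψ (v + w) = QuotientGroup.mk (r v * r w) := by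
    intro v w
    rw [hadd, hr v, hr w]
    rfl
  have hβl : ∀ u v w, β (u + v) w = β u w + β v w := by
    intro u v w
    rw [hβ _ _ _ _ (hmul u v) (hr w)]
    have e : r u * r v * r w * (r u * r v)⁻¹ * (r w)⁻¹ =
        r u * (r v * r w * (r v)⁻¹ * (r w)⁻¹) * (r w * (r u)⁻¹ * (r w)⁻¹) := by group
    rw [e, Subgroup.mem_center_iff.1 (extraspecial_center_mem hQ (r v) (r w)) (r u), mul_assoc,
      show r u * (r w * (r u)⁻¹ * (r w)⁻¹) = r u * r w * (r u)⁻¹ * (r w)⁻¹ by group,
      centerVal_mul hQ (extraspecial_center_mem hQ _ _) (extraspecial_center_mem hQ _ _), add_comm]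
  have hβsymm : ∀ v w, β v w = β w v := by
    intro v w
    have h1 : β w v = centerVal (r v * r w * (r v)⁻¹ * (r w)⁻¹)⁻¹ := by
      simp only [β]; congr 1; group
    rw [h1]
    by_cases h : r v * r w * (r v)⁻¹ * (r w)⁻¹ = 1
    · simp only [β, h, inv_one]
    · simp only [β, centerVal, inv_eq_one, h, if_false]
  have hβr : ∀ u v w, β u (v + w) = β u v + β u w := fun u v w => by
    rw [hβsymm, hβl, hβsymm v, hβsymm w]
  let B : L →+ L →+ ZMod 2 :=
    AddMonoidHom.mk' (fun v => AddMonoidHom.mk' (β v) (hβr v)) (fun u v => AddMonoidHom.ext (hβl u v))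
  let q : L → ZMod 2 := fun v => centerVal (r v * r v)
  have hq : ∀ v a, ψ v = QuotientGroup.mk a → q v = centerVal (a * a) := by
    intro v a ha
    obtain ⟨z, hz, rfl⟩ := hrel v a ha
    rw [hsq hz]
  refine ⟨B, q, fun v a ha => ?_, fun v w a b ha hb => ?_, fun v w => ?_, fun v => ?_, hβsymm, fun hs v hv => ?_,
    fun φ g hg => ⟨fun v w => ?_, fun v => ?_⟩⟩
  · rw [hq v a ha, centerVal_eq_zero_iff, pow_two]
  · show β v w = 0 ↔ _
    rw [hβ v w a b ha hb, centerVal_eq_zero_iff, commute_iff_eq]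
    constructor
    · intro h
      calc a * b = a * b * a⁻¹ * b⁻¹ * (b * a) := by group
        _ = b * a := by rw [h, one_mul]
    · intro h
      rw [h]; group
  · show q (v + w) = q v + q w + β v w
    rw [hq _ _ (hmul v w), hβsymm v w]
    have e : (r v * r w) * (r v * r w) = r v * r v * ((r v)⁻¹ * (r w * r v * (r w)⁻¹)) * (r w * r w) := by group
    have e2 : (r v)⁻¹ * (r w * r v * (r w)⁻¹) = r w * r v * (r w)⁻¹ * (r v)⁻¹ := by
      calc (r v)⁻¹ * (r w * r v * (r w)⁻¹) = (r v)⁻¹ * (r w * r v * (r w)⁻¹ * (r v)⁻¹) * r v := by group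
        _ = r w * r v * (r w)⁻¹ * (r v)⁻¹ := by
          rw [Subgroup.mem_center_iff.1 (extraspecial_center_mem hQ (r w) (r v)) (r v)⁻¹, mul_assoc,
            inv_mul_cancel, mul_one]
    rw [e, e2, centerVal_mul hQ (mul_mem (extraspecial_sq_mem_center hQ _) (extraspecial_center_mem hQ _ _))
      (extraspecial_sq_mem_center hQ _), centerVal_mul hQ (extraspecial_sq_mem_center hQ _)
      (extraspecial_center_mem hQ _ _)]
    simp only [q, β]
    ring
  · show β v v = 0
    simp [β, centerVal_eq_zero_iff]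
  · rw [hr v, QuotientGroup.eq_one_iff, Subgroup.mem_center_iff]
    intro b
    obtain ⟨w, hw⟩ := hs (QuotientGroup.mk b)
    have h := hv w
    have h' : centerVal (r v * b * (r v)⁻¹ * b⁻¹) = 0 := (hβ v w _ b (hr v) hw).symm.trans h
    rw [centerVal_eq_zero_iff] at h'
    calc b * r v = (r v * b * (r v)⁻¹ * b⁻¹) * (b * r v) := by rw [h', one_mul]
      _ = r v * b := by group
  · show β (g v) (g w) = β v w
    rw [hβ _ _ _ _ (hg v _ (hr v)) (hg w _ (hr w)), ← map_inv, ← map_inv, ← map_mul, ← map_mul, ← map_mul,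
      extraspecial_automorphism_fix hQ φ (extraspecial_center_mem hQ _ _)]
  · rw [hq _ _ (hg v _ (hr v)), ← map_mul, extraspecial_automorphism_fix hQ φ (extraspecial_sq_mem_center hQ _)]

end Cfsg.Agent.Monster
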