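import Cfsg.Agent.Monster.BabyLift
import Cfsg.Agent.S5429
import Cfsg.Agent.Components.FStar

/-!
The centraliser of an involution of `Q` not conjugate to `z`, modulo that involution.
-/

set_option autoImplicit false

namespace Cfsg.Agent.Monster.MSetting

set_option quotPrecheck false in
/-- The centraliser of an element modulo the subgroup it generates. -/
local notation "Xq[" t "]" => (↥(Subgroup.centralizer ({t} : Set _)) ⧸
  Subgroup.subgroupOf (Subgroup.zpowers t) (Subgroup.centralizer ({t} : Set _)))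

open Cfsg Cfsg.Agent.Leech

/-- A normal 2-subgroup of the second Conway group is trivial. -/
theorem co2_normal_two_eq_bot {N : Subgroup Spor.Co2} (hn : N.Normal) (hN : IsPGroup 2 N) : N = ⊥ := by
  let i : Spor.Co2 →* Co0 := Subgroup.inclusion inf_le_left
  have hfix : ∀ g : Spor.Co2, i g • Spor.leechU = Spor.leechU := fun g => g.2.2
  have hle : N.map i ≤ classStab Spor.leechU := by
    rintro _ ⟨g, -, rfl⟩
    exact mem_classStab_leechU.2 (Or.inl (hfix g))
  have hnorm : classStab Spor.leechU ≤ Subgroup.normalizer ((N.map i : Subgroup Co0) : Set Co0) := by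
    have pos : ∀ h : Co0, h • Spor.leechU = Spor.leechU →
        h ∈ Subgroup.normalizer ((N.map i : Subgroup Co0) : Set Co0) := by
      intro h hh
      exact Subgroup.le_normalizer_map i ⟨⟨h.1, h.2, hh⟩, Subgroup.mem_normalizer_iff.2 fun x =>
        ⟨fun hx => hn.conj_mem x hx _,
          fun hx => by simpa [mul_assoc] using hn.conj_mem _ hx (⟨h.1, h.2, hh⟩ : Spor.Co2)⁻¹⟩, rfl⟩
    intro h hh
    rcases mem_classStab_leechU.1 hh with e | e
    · exact pos h e
    · have h1 := pos (negCo0 * h) (by rw [mul_smul, e, negCo0_smul, neg_neg])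
      have h2 : negCo0 ∈ Subgroup.normalizer ((N.map i : Subgroup Co0) : Set Co0) := by
        refine Subgroup.mem_normalizer_iff.2 fun x => ?_
        rw [(Subgroup.mem_center_iff.1 ((center_eq _).2 (Or.inr rfl)) x).symm, mul_inv_cancel_right]
      have := Subgroup.mul_mem _ (Subgroup.inv_mem _ h2) h1
      rwa [inv_mul_cancel_left] at this
  have hc := le_center_of_normal_uStab (hN.map i) hle hnorm
  refine (Subgroup.eq_bot_iff_forall _).2 fun g hg => ?_
  have := eq_one_of_center_fix (hc ⟨g, hg, rfl⟩) (hfix g)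
  exact Subgroup.inclusion_injective inf_le_left (this.trans (map_one i).symm)

universe u

variable {G : Type u} [Group G] [Finite G] {z : G} {Q : Subgroup (Subgroup.centralizer ({z} : Set G))} [Q.Normal]
  {e : (Subgroup.centralizer ({z} : Set G)) ⧸ Q ≃* Spor.Co1} {ψ : leechLattice → Q ⧸ Subgroup.center Q}
  (S : MSetting z Q e ψ)
include S

theorem baby_type {t : G} (ht : Rep ψ Spor.leechU t) (hnt : ¬ IsConj z t)
    [hn : ((Subgroup.zpowers t).subgroupOf (Subgroup.centralizer ({t} : Set G))).Normal] :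
    IsOfBabyMonsterType (↥(Subgroup.centralizer ({t} : Set G)) ⧸
      (Subgroup.zpowers t).subgroupOf (Subgroup.centralizer ({t} : Set G))) := by
  haveI := finite_Co0
  haveI : Fact (Nat.Prime 2) := ⟨Nat.prime_two⟩
  have htA : t ∈ amb Q := rep_mem ht
  have ht2 : t * t = 1 := (S.sq_iff ht).2 (by rw [sqNorm_leechU])
  obtain ⟨ht1, htz⟩ := S.norm_not_central (x := t) (n := 32) (by norm_num) (by norm_num) ⟨_, sqNorm_leechU, ht⟩
  have htord : orderOf t = 2 := orderOf_eq_prime (by rw [pow_two, ht2]) ht1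
  have hzt : z * t = t * z := (S.ci.comm t htA).symm
  have hzne : ¬ IsConj z (z * t) := by
    obtain ⟨q, -, eq⟩ := S.ci.exists_swap htA ht1 htz
    intro hc
    exact hnt (hc.trans (by rw [hzt]; exact (isConj_iff.2 ⟨q, eq⟩).symm))
  obtain ⟨g, hgQ, hne, htA'⟩ := S.exists_conj_through ht
  have hgZ : g * z * g⁻¹ ∉ ((Subgroup.center ↥(amb Q)).map (amb Q).subtype) := by
    rw [S.ci.center_eq, S.ci.mem_zpowers_iff]
    rintro (r | r)
    · exact S.ci.ne_one (conj_eq_one_iff.1 r)
    · exact hne r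
  obtain ⟨hzord, hF, -, -, -⟩ := S.setting
  -- the subgroup generated by t and z
  have four : ∀ {y : G}, y ∈ Subgroup.closure ({t, z} : Set G) → y ∈ ({1, t, z, t * z} : Set G) := by
    have ha : ∀ a, t * (t * a) = a := fun a => by rw [← mul_assoc, ht2, one_mul]
    have hb : ∀ a, z * (z * a) = a := fun a => by rw [← mul_assoc, S.ci.sq, one_mul]
    have hc : ∀ a, z * (t * a) = t * (z * a) := fun a => by rw [← mul_assoc, hzt, mul_assoc]
    intro y hy
    induction hy using Subgroup.closure_induction with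
    | mem x hx =>
      rcases hx with rfl | rfl <;> simp
    | one => simp
    | mul x y _ _ h1 h2 =>
      simp only [Set.mem_insert_iff, Set.mem_singleton_iff] at h1 h2 ⊢
      rcases h1 with rfl | rfl | rfl | rfl <;> rcases h2 with rfl | rfl | rfl | rfl <;>
        simp [mul_assoc, ha, hb, hc, ht2, S.ci.sq, hzt]
    | inv x _ h1 =>
      simp only [Set.mem_insert_iff, Set.mem_singleton_iff] at h1 ⊢
      rcases h1 with rfl | rfl | rfl | rfl <;>
        simp [inv_eq_of_mul_eq_one_right ht2, S.ci.inv_eq, hzt]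
  have hCP : ∀ c ∈ Subgroup.centralizer ({z} : Set G), (∀ x ∈ amb Q ⊓ Subgroup.centralizer ({t} : Set G),
      ∃ y ∈ Subgroup.closure ({t, z} : Set G), c * x * c⁻¹ = x * y) ↔ c ∈ amb Q := by
    intro c hc
    constructor
    · intro h
      refine S.mem_amb_of_trivial ht ⟨c, hc⟩ fun x hx => ?_
      obtain ⟨y, hy, ey⟩ := h x hx
      show c * x * c⁻¹ * x⁻¹ ∈ _
      have hxt := Subgroup.mem_centralizer_singleton_iff.1 hx.2
      have hxz := S.ci.comm x hx.1
      have hxy : x * y = y * x := by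
        rcases four hy with rfl | rfl | rfl | rfl
        · rw [one_mul, mul_one]
        · exact hxt
        · exact hxz
        · rw [← mul_assoc, hxt, mul_assoc, hxz, ← mul_assoc]
      rw [ey, hxy, mul_inv_cancel_right]
      exact four hy
    · intro hcA x hx
      rcases S.ci.conj_cases hcA hx.1 with r | r
      · exact ⟨1, one_mem _, by rw [r, mul_one]⟩
      · exact ⟨z, Subgroup.subset_closure (Or.inr rfl), r⟩
  obtain ⟨hlarge, x1, hx1, hx1b⟩ := S5429.result z hzord (amb Q) S.ci.le_centralizer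
    (by rw [amb, hF]) S.ci.extra 12 (by norm_num) S.card_amb g hgQ hgZ t htord ⟨htA, htA'⟩ hnt
    (amb Q ⊓ Subgroup.centralizer ({t} : Set G)) rfl hCP
  set P := amb Q ⊓ Subgroup.centralizer ({t} : Set G) with hP
  let π : ↥(Subgroup.centralizer ({t} : Set G)) →* ↥(Subgroup.centralizer ({t} : Set G)) ⧸
      (Subgroup.zpowers t).subgroupOf (Subgroup.centralizer ({t} : Set G)) := QuotientGroup.mk' _
  have hzC : z ∈ Subgroup.centralizer ({t} : Set G) := Subgroup.mem_centralizer_singleton_iff.2 hzt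
  have hzP : z ∈ P := ⟨S.ci.mem, hzC⟩
  have htP : t ∈ P := ⟨htA, Subgroup.mem_centralizer_singleton_iff.2 rfl⟩
  have hπ : ∀ {u v : ↥(Subgroup.centralizer ({t} : Set G))}, π u = π v ↔ (v : G) = u ∨ (v : G) = u * t := by
    intro u v
    rw [show (π u = π v) ↔ u⁻¹ * v ∈ (Subgroup.zpowers t).subgroupOf _ from QuotientGroup.eq,
      Subgroup.mem_subgroupOf, Subgroup.coe_mul, Subgroup.coe_inv]
    constructor
    · rintro ⟨k, hk⟩
      rcases Int.even_or_odd' k with ⟨m, rfl | rfl⟩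
      · left
        simp [zpow_mul, pow_two, ht2] at hk
        exact (inv_mul_eq_one.1 hk.symm).symm
      · right
        simp [zpow_add, zpow_mul, pow_two, ht2] at hk
        exact inv_mul_eq_iff_eq_mul.1 hk.symm
    · rintro (r | r) <;> rw [r]
      · rw [inv_mul_cancel]; exact one_mem _
      · rw [inv_mul_cancel_left]; exact Subgroup.mem_zpowers t
  set zc := π ⟨z, hzC⟩ with hzc
  set Pb := (P.subgroupOf (Subgroup.centralizer ({t} : Set G))).map π with hPb
  have hmemPb : ∀ {p : G} (hp : p ∈ P), π ⟨p, hp.2⟩ ∈ Pb := fun hp => ⟨_, hp, rfl⟩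
  have hzc1 : zc ≠ 1 := by
    intro r
    rw [← map_one π, hzc, hπ] at r
    rcases r with r | r
    · exact S.ci.ne_one r.symm
    · exact htz (by rw [← mul_left_cancel (a := z) (b := t) (c := z) (by rw [S.ci.sq]; exact r.symm)])
  obtain ⟨hlE, hlC, hlN, -⟩ := hlarge
  obtain ⟨y0, hci⟩ := LargeExtra.exists_centralInvolution hlE
  obtain rfl : zc = y0 := (hci.of_central zc (hmemPb hzP) (by
    rintro _ ⟨p, hp, rfl⟩
    rw [hzc, ← map_mul, ← map_mul]
    exact congrArg π (Subtype.ext (S.ci.comm p hp.1)))).resolve_left hzc1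
  rw [hci.centralizer_center] at hlN
  set Cz := Subgroup.centralizer ({zc} : Set (↥(Subgroup.centralizer ({t} : Set G)) ⧸
      (Subgroup.zpowers t).subgroupOf (Subgroup.centralizer ({t} : Set G)))) with hCz
  set Qb := Pb.subgroupOf Cz with hQbdef
  haveI hQbn : Qb.Normal := Subgroup.normal_subgroupOf_of_le_normalizer hlN
  have hPbCz : Pb ≤ Cz := hci.le_centralizer
  let bar : ∀ p : G, p ∈ P → ↥Qb := fun p hp => ⟨⟨π ⟨p, hp.2⟩, hPbCz (hmemPb hp)⟩, hmemPb hp⟩
  have bar_surj : ∀ w : ↥Qb, ∃ p, ∃ hp : p ∈ P, w = bar p hp := by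
    intro w
    obtain ⟨c, hc, r⟩ := w.2
    exact ⟨c, hc, Subtype.ext (Subtype.ext r.symm)⟩
  have hcen : ∀ w : ↥Qb, w ∈ Subgroup.center ↥Qb ↔ ((w : ↥Cz) : Xq[t]) = 1 ∨ ((w : ↥Cz) : Xq[t]) = zc := by
    intro w
    constructor
    · intro hw
      refine hci.of_central _ w.2 fun q hq => ?_
      exact congrArg (fun v : ↥Qb => ((v : ↥Cz) : Xq[t]))
        (Subgroup.mem_center_iff.1 hw ⟨⟨q, hPbCz hq⟩, hq⟩)
    · intro hw
      refine Subgroup.mem_center_iff.2 fun v => Subtype.ext (Subtype.ext ?_)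
      simp only [Subgroup.coe_mul]
      rcases hw with r | r <;> rw [r]
      · rw [mul_one, one_mul]
      · exact hci.comm _ v.2
  -- lifting to the centraliser of z
  have hlift : ∀ y : ↥Cz, ∃ c : ↥(Subgroup.centralizer ({t} : Set G)),
      π c = y ∧ (c : G) ∈ Subgroup.centralizer ({z} : Set G) := by
    intro y
    obtain ⟨c, hc⟩ := QuotientGroup.mk'_surjective _ (y : Xq[t])
    refine ⟨c, hc, Subgroup.mem_centralizer_singleton_iff.2 ?_⟩
    have h1 := Subgroup.mem_centralizer_singleton_iff.1 y.2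
    rw [← hc, hzc, ← map_mul, ← map_mul, hπ] at h1
    simp only [Subgroup.coe_mul] at h1
    rcases h1 with r | r
    · exact r.symm
    · exfalso
      refine hzne (isConj_iff.2 ⟨(c : G)⁻¹, ?_⟩)
      have hct : t * (c : G) = c * t := (Subgroup.mem_centralizer_singleton_iff.1 c.2).symm
      calc (c : G)⁻¹ * z * (c : G)⁻¹⁻¹ = (c : G)⁻¹ * (z * c) := by group
        _ = z * t := by rw [r]; group
  have hρex : ∀ y : ↥Cz, ∃ w : Subgroup.centralizer ({z} : Set G) ⧸ Q,
      ∀ c : ↥(Subgroup.centralizer ({t} : Set G)), π c = y → ∀ hc : (c : G) ∈ Subgroup.centralizer ({z} : Set G),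
        w = QuotientGroup.mk ⟨c, hc⟩ := by
    intro y
    obtain ⟨c0, hc0, hc0z⟩ := hlift y
    refine ⟨QuotientGroup.mk ⟨c0, hc0z⟩, fun c hc hcz => ?_⟩
    rcases hπ.1 (hc0.trans hc.symm) with r | r
    · congr 1
      exact Subtype.ext r.symm
    · obtain ⟨tq, htq, etq⟩ := htA
      rw [show (⟨c, hcz⟩ : Subgroup.centralizer ({z} : Set G)) = ⟨c0, hc0z⟩ * tq from
        Subtype.ext (r.trans (congrArg ((c0 : G) * ·) etq.symm)), QuotientGroup.mk_mul,
        (QuotientGroup.eq_one_iff tq).2 htq, mul_one]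
  choose ρf hρf using hρex
  let ρ : ↥Cz →* Subgroup.centralizer ({z} : Set G) ⧸ Q := MonoidHom.mk' ρf fun y y' => by
    obtain ⟨c, hc, hcz⟩ := hlift y
    obtain ⟨c', hc', hcz'⟩ := hlift y'
    rw [hρf y c hc hcz, hρf y' c' hc' hcz', ← QuotientGroup.mk_mul]
    exact hρf (y * y') (c * c') (by rw [map_mul, hc, hc']; rfl) (Subgroup.mul_mem _ hcz hcz')
  have hcomap := S.comap_stabImage ht ht1 htz
  let θ : Spor.Co2 →* Subgroup.centralizer ({z} : Set G) ⧸ Q := S.proj.comp (Subgroup.inclusion inf_le_left)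
  have hθ : Function.Injective θ := (injective_iff_map_eq_one θ).2 fun a ha => by
    have hk : Subgroup.inclusion (inf_le_left : Spor.Co2 ≤ Co0) a ∈ Subgroup.center Co0 := by
      have : S.proj (Subgroup.inclusion (inf_le_left : Spor.Co2 ≤ Co0) a) = 1 := ha
      simpa [proj] using this
    exact Subgroup.inclusion_injective inf_le_left ((eq_one_of_center_fix hk a.2.2).trans (map_one _).symm)
  have hρr : ∀ y, ρ y ∈ θ.range := by
    intro y
    obtain ⟨c, hc, hcz⟩ := hlift y
    have hmem : ρ y ∈ stabImage Q t := by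
      show ρf y ∈ _
      rw [hρf y c hc hcz]
      exact ⟨⟨c, hcz⟩, ⟨hcz, c.2⟩, rfl⟩
    obtain ⟨a, ha⟩ := S.proj_surjective (ρ y)
    have haU : a ∈ classStab Spor.leechU := by rw [← hcomap, Subgroup.mem_comap, ha]; exact hmem
    rcases mem_classStab_leechU.1 haU with r | r
    · exact ⟨⟨a.1, a.2, r⟩, ha⟩
    · have r' : (negCo0 * a) • Spor.leechU = Spor.leechU := by rw [mul_smul, r, negCo0_smul, neg_neg]
      refine ⟨⟨(negCo0 * a).1, (negCo0 * a).2, r'⟩, ?_⟩
      show S.proj (negCo0 * a) = ρ y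
      rw [map_mul, ha, show S.proj negCo0 = 1 by simp [proj, (center_eq negCo0).2 (Or.inr rfl)], one_mul]
  let F : ↥Cz →* Spor.Co2 := (MonoidHom.ofInjective hθ).symm.toMonoidHom.comp (ρ.codRestrict θ.range hρr)
  have hθF : ∀ y, θ (F y) = ρ y := fun y =>
    congrArg Subtype.val ((MonoidHom.ofInjective hθ).apply_symm_apply ⟨ρ y, hρr y⟩)
  have hFs : Function.Surjective F := by
    intro a
    have hm : θ a ∈ stabImage Q t := by
      have : Subgroup.inclusion (inf_le_left : Spor.Co2 ≤ Co0) a ∈ classStab Spor.leechU :=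
        mem_classStab_leechU.2 (Or.inl a.2.2)
      rw [← hcomap] at this
      exact this
    obtain ⟨c, hc, r⟩ := hm
    have hct : (c : G) ∈ Subgroup.centralizer ({t} : Set G) := hc.2
    have hy : π ⟨c, hct⟩ ∈ Cz := by
      rw [Subgroup.mem_centralizer_singleton_iff, hzc, ← map_mul, ← map_mul]
      exact congrArg π (Subtype.ext (Subgroup.mem_centralizer_singleton_iff.1 c.2))
    refine ⟨⟨_, hy⟩, hθ ?_⟩
    rw [hθF]
    exact (hρf ⟨_, hy⟩ ⟨c, hct⟩ rfl c.2).trans r
  have hker : F.ker = Qb := by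
    ext y
    obtain ⟨c, hc, hcz⟩ := hlift y
    rw [MonoidHom.mem_ker, ← hθ.eq_iff, hθF, map_one]
    show ρf y = 1 ↔ _
    rw [hρf y c hc hcz, QuotientGroup.eq_one_iff]
    constructor
    · intro h
      exact Subgroup.mem_subgroupOf.2 (hc ▸ hmemPb (p := (c : G)) ⟨⟨_, h, rfl⟩, c.2⟩)
    · intro h
      obtain ⟨p, hp, r⟩ := Subgroup.mem_subgroupOf.1 h
      have : (c : G) ∈ amb Q := by
        rcases hπ.1 (r.trans hc.symm) with r' | r'
        · rw [r']; exact hp.1
        · rw [r']; exact mul_mem hp.1 htA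
      obtain ⟨w, hw, ew⟩ := this
      rwa [show (⟨(c : G), hcz⟩ : Subgroup.centralizer ({z} : Set G)) = w from Subtype.ext ew.symm]
  let e' : ↥Cz ⧸ Qb ≃* Spor.Co2 :=
    (QuotientGroup.quotientMulEquivOfEq hker.symm).trans (QuotientGroup.quotientKerEquivOfSurjective F hFs)
  -- the module map
  have hrepP : ∀ (a : leechPerpU) {p : G}, Rep ψ (a : leechLattice) p → p ∈ P := fun a p hp =>
    ⟨rep_mem hp, Subgroup.mem_centralizer_singleton_iff.2 ((S.commute_iff ht hp).2 a.2)⟩
  choose rp hrp using fun a : leechPerpU => S.rep_surj (a : leechLattice)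
  let ψ' : leechPerpU → ↥Qb ⧸ Subgroup.center ↥Qb := fun a => QuotientGroup.mk (bar (rp a) (hrepP a (hrp a)))
  have hψ' : ∀ (a : leechPerpU) {p : G} (hp : Rep ψ (a : leechLattice) p),
      ψ' a = QuotientGroup.mk (bar p (hrepP a hp)) := by
    intro a p hp
    refine QuotientGroup.eq.2 ((hcen _).2 ?_)
    rcases S.rep_pair (hrp a) hp (Cong.refl _) with r | r
    · left
      show (π ⟨rp a, _⟩)⁻¹ * π ⟨p, _⟩ = 1
      rw [inv_mul_eq_one]
      exact congrArg π (Subtype.ext r.symm)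
    · right
      show (π ⟨rp a, _⟩)⁻¹ * π ⟨p, _⟩ = zc
      rw [inv_mul_eq_iff_eq_mul, hzc, ← map_mul]
      exact congrArg π (Subtype.ext r)
  have hbar : ∀ {p q : G} (hp : p ∈ P) (hq : q ∈ P), bar p hp * bar q hq = bar (p * q) (mul_mem hp hq) := by
    intro p q hp hq
    refine Subtype.ext (Subtype.ext ?_)
    show π ⟨p, _⟩ * π ⟨q, _⟩ = π ⟨p * q, _⟩
    rw [← map_mul]
    rfl
  refine ⟨zc, Qb, hQbn, ⟨hci.order_two, ?_, ?_, ?_, ?_⟩, e', ψ', ?_, ?_, ?_, ?_⟩
  · -- generalized Fitting subgroup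
    have hQp : IsPGroup 2 ↥Qb := hci.isPGroup.comap_subtype
    have hcore : pCore 2 ↥Cz = Qb := by
      refine le_antisymm (Cores.pCore_le fun N hN hN2 => ?_) (Cores.le_pCore hQbn hQp)
      have h0 := co2_normal_two_eq_bot (hN.map F hFs) (hN2.map F)
      rw [Subgroup.map_eq_bot_iff, hker] at h0
      exact h0
    rw [Components.genFitting_eq_pCore_of_centralizer_le (p := 2) ?_, hcore]
    rw [hcore]
    intro y hy
    have hy' : (y : Xq[t]) ∈ Subgroup.centralizer (Pb : Set Xq[t]) := fun q hq =>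
      congrArg Subtype.val (hy ⟨q, hPbCz hq⟩ hq)
    rw [hlC] at hy'
    obtain ⟨w, -, hw⟩ := hy'
    exact Subgroup.mem_subgroupOf.2 (hw ▸ w.2)
  · exact LargeExtra.isExtraspecial_map_equiv hlE (Subgroup.subgroupOfEquivOfLe hPbCz).symm
  · rw [Nat.card_congr (Subgroup.subgroupOfEquivOfLe hPbCz).toEquiv]
    let f := π.comp (P.subgroupOf (Subgroup.centralizer ({t} : Set G))).subtype
    have hr : f.range = Pb := by rw [MonoidHom.range_comp, Subgroup.range_subtype]
    have h1 := Subgroup.card_mul_index f.ker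
    rw [Subgroup.index_ker, hr, Nat.card_congr (Subgroup.subgroupOfEquivOfLe
      (inf_le_right : P ≤ Subgroup.centralizer ({t} : Set G))).toEquiv] at h1
    have h2 : Nat.card f.ker = 2 := by
      rw [← htord, ← Nat.card_zpowers]
      refine Nat.card_congr
        { toFun := fun w => ⟨((w.1 : ↥(Subgroup.centralizer ({t} : Set G))) : G),
            Subgroup.mem_subgroupOf.1 ((QuotientGroup.eq_one_iff _).1 w.2)⟩
          invFun := fun w => ⟨⟨⟨w.1, Subgroup.zpowers_le.2 (Subgroup.mem_centralizer_singleton_iff.2 rfl) w.2⟩,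
              Subgroup.zpowers_le.2 htP w.2⟩, (QuotientGroup.eq_one_iff _).2 (Subgroup.mem_subgroupOf.2 w.2)⟩
          left_inv := fun w => rfl
          right_inv := fun w => rfl }
    have h3 := card_inf_centralizer S.ci htA ht1 htz
    rw [S.card_amb, ← hP] at h3
    rw [h2] at h1
    have h1' : 2 * Nat.card ↥Pb = Nat.card ↥P := h1
    omega
  · -- not weakly closed
    have hxC : x1 ∈ Subgroup.centralizer ({t} : Set G) :=
      (sup_le inf_le_right inf_le_right : P ⊔ ((amb Q).map (MulAut.conj g).toMonoidHom ⊓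
        Subgroup.centralizer ({t} : Set G)) ≤ Subgroup.centralizer ({t} : Set G)) hx1
    have hbP : g * z * g⁻¹ ∈ P := ⟨hgQ, Subgroup.mem_centralizer_singleton_iff.2
      ((S.ci.conj g).comm t htA').symm⟩
    have hb : π ⟨x1, hxC⟩⁻¹ * zc * (π ⟨x1, hxC⟩⁻¹)⁻¹ = π ⟨g * z * g⁻¹, hbP.2⟩ := by
      rw [hzc, ← map_inv, ← map_mul, ← map_mul]
      refine congrArg π (Subtype.ext ?_)
      show x1⁻¹ * z * (x1⁻¹)⁻¹ = g * z * g⁻¹
      conv_lhs => rw [← hx1b]
      group
    refine ⟨π ⟨x1, hxC⟩⁻¹, ⟨?_, ?_⟩, ?_⟩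
    · rw [hb]; exact hPbCz (hmemPb hbP)
    · refine Subgroup.mem_subgroupOf.2 ?_
      show π ⟨x1, hxC⟩⁻¹ * zc * (π ⟨x1, hxC⟩⁻¹)⁻¹ ∈ Pb
      rw [hb]; exact hmemPb hbP
    · rw [hb, hzc]
      intro r
      rcases hπ.1 r with r' | r'
      · exact hne r'.symm
      · refine hzne (isConj_iff.2 ⟨g, ?_⟩)
        calc g * z * g⁻¹ = g * z * g⁻¹ * (t * t) := by rw [ht2, mul_one]
          _ = g * z * g⁻¹ * t * t := by group
          _ = z * t := by rw [← r']
  · intro a b
    have hab : Rep ψ ((a + b : leechPerpU) : leechLattice) (rp a * rp b) := by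
      rw [AddSubgroup.coe_add]
      exact S.rep_mul (hrp a) (hrp b)
    rw [hψ' (a + b) hab]
    show _ = QuotientGroup.mk _ * QuotientGroup.mk _
    rw [← QuotientGroup.mk_mul, hbar (hrepP a (hrp a)) (hrepP b (hrp b))]
  · intro w
    obtain ⟨q, rfl⟩ := QuotientGroup.mk_surjective w
    obtain ⟨p, hp, rfl⟩ := bar_surj q
    obtain ⟨v, hv⟩ := S.rep_exists hp.1
    exact ⟨⟨v, (S.commute_iff ht hv).1 (Subgroup.mem_centralizer_singleton_iff.1 hp.2)⟩, hψ' _ hv⟩
  · intro a
    have hv := hrp a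
    show QuotientGroup.mk (bar (rp a) (hrepP a (hrp a))) = 1 ↔ _
    rw [QuotientGroup.eq_one_iff, hcen]
    show π ⟨rp a, (hrepP a (hrp a)).2⟩ = 1 ∨ π ⟨rp a, (hrepP a (hrp a)).2⟩ = zc ↔ _
    rw [← map_one π, hzc, hπ, hπ]
    simp only [Subgroup.coe_one]
    have hdbl : ∀ w u : leechLattice, Cong (w + (u + u)).1 w.1 := fun w u => ⟨u.1, u.2, by
      simp only [AddSubgroup.coe_add, two_nsmul]; abel⟩
    have hzero : (rp a = 1 ∨ rp a = z) ↔ ∃ u : leechLattice, (a : leechLattice) = u + u := by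
      refine ⟨fun h => ?_, ?_⟩
      · obtain ⟨u, hu, eu⟩ := (S.rep_zero_iff hv).2 h
        exact ⟨⟨u, hu⟩, Subtype.ext (by rw [sub_zero] at eu; rw [AddSubgroup.coe_add, eu, two_nsmul])⟩
      · rintro ⟨u, hu⟩
        refine (S.rep_zero_iff hv).1 ?_
        rw [hu]
        have := hdbl 0 u
        rwa [zero_add] at this
    have hone : (rp a = t ∨ rp a = t * z) ↔ ∃ u : leechLattice, (a : leechLattice) = Spor.leechU + (u + u) := by
      refine ⟨fun h => ?_, ?_⟩
      · obtain ⟨u, hu, eu⟩ : Cong (a : leechLattice).1 Spor.leechU.1 := by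
          rcases h with r | r
          · exact S.rep_cong (r ▸ hv) ht
          · have h' := S.rep_cong (r ▸ hv) (S.rep_mul ht S.rep_z)
            rwa [add_zero] at h'
        exact ⟨⟨u, hu⟩, Subtype.ext (by
          rw [AddSubgroup.coe_add, AddSubgroup.coe_add, ← two_nsmul, ← eu]; abel)⟩
      · rintro ⟨u, hu⟩
        exact S.rep_pair ht hv (by rw [hu]; exact (hdbl _ u).symm)
    rw [← hzero, ← hone]
    constructor
    · rintro ((r | r) | (r | r))
      · exact Or.inl (Or.inl r.symm)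
      · refine Or.inr (Or.inl ?_)
        calc rp a = rp a * t * t := by rw [mul_assoc, ht2, mul_one]
          _ = t := by rw [← r, one_mul]
      · exact Or.inl (Or.inr r.symm)
      · refine Or.inr (Or.inr ?_)
        rw [← hzt]
        calc rp a = rp a * t * t := by rw [mul_assoc, ht2, mul_one]
          _ = z * t := by rw [← r]
    · rintro ((r | r) | (r | r))
      · exact Or.inl (Or.inl r.symm)
      · exact Or.inr (Or.inl r.symm)
      · exact Or.inl (Or.inr (by rw [r, ht2]))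
      · exact Or.inr (Or.inr (by rw [r, ← hzt, mul_assoc, ht2, mul_one]))
  · intro h a ha x y hxy q hq
    have haF : F h = a := ha
    obtain ⟨c, hc, hcz⟩ := hlift h
    have hm : S.Matches (Subgroup.inclusion inf_le_left a) ⟨c, hcz⟩ := by
      refine S.proj_eq_iff.1 ?_
      show θ a = _
      rw [← haF, hθF]
      exact hρf h c hc hcz
    have hr := S.rep_conj hm (hrp x)
    rw [show Subgroup.inclusion inf_le_left a • (x : leechLattice) = (y : leechLattice) from hxy] at hr
    rw [hψ' y hr]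
    have hq' := QuotientGroup.eq.1 (show QuotientGroup.mk (bar (rp x) (hrepP x (hrp x))) = QuotientGroup.mk q from hq)
    refine QuotientGroup.eq.2 ((hcen _).2 ?_)
    have hval : π ⟨(c : G) * rp x * (c : G)⁻¹, (hrepP y hr).2⟩ =
        (h : Xq[t]) * π ⟨rp x, (hrepP x (hrp x)).2⟩ * (h : Xq[t])⁻¹ := by
      rw [← hc, ← map_inv, ← map_mul, ← map_mul]
      rfl
    show (π ⟨(c : G) * rp x * (c : G)⁻¹, _⟩)⁻¹ * ((h : Xq[t]) * ((q : ↥Cz) : Xq[t]) * (h : Xq[t])⁻¹) = 1 ∨
      (π ⟨(c : G) * rp x * (c : G)⁻¹, _⟩)⁻¹ * ((h : Xq[t]) * ((q : ↥Cz) : Xq[t]) * (h : Xq[t])⁻¹) = zc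
    rw [hval]
    have e1 : ((h : Xq[t]) * π ⟨rp x, (hrepP x (hrp x)).2⟩ * (h : Xq[t])⁻¹)⁻¹ *
        ((h : Xq[t]) * ((q : ↥Cz) : Xq[t]) * (h : Xq[t])⁻¹) =
        (h : Xq[t]) * ((π ⟨rp x, (hrepP x (hrp x)).2⟩)⁻¹ * ((q : ↥Cz) : Xq[t])) * (h : Xq[t])⁻¹ := by group
    rw [e1]
    have hratio : (π ⟨rp x, (hrepP x (hrp x)).2⟩)⁻¹ * ((q : ↥Cz) : Xq[t]) = 1 ∨
        (π ⟨rp x, (hrepP x (hrp x)).2⟩)⁻¹ * ((q : ↥Cz) : Xq[t]) = zc := (hcen _).1 hq'
    rcases hratio with r | r <;> rw [r]
    · exact Or.inl (by group)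
    · exact Or.inr (by rw [Subgroup.mem_centralizer_singleton_iff.1 h.2, mul_inv_cancel_right])

end Cfsg.Agent.Monster.MSetting
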