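import Mathlib
import Cfsg.Prelude.Def_Sporadic_a

/-!
Elementary facts about the length-24 code: it is self-orthogonal and doubly even, it has no non-zero word supported in a
certain 12-set, and all pairs through the extra point lie in the span of the pointwise products of its words.
-/

set_option autoImplicit false

namespace Cfsg.Agent.Monster

open Cfsg

/-- The translates of the squares (indices below 23) and the all-ones word (index 23). -/
def golayGen (i : Fin 24) : GolayPt → ZMod 2 :=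
  if i.val < 23 then qrWord (i.val : ZMod 23) else 1

theorem golayGen_mem (i : Fin 24) : golayGen i ∈ golayCode := by
  unfold golayGen
  split
  · exact Submodule.subset_span (Or.inl ⟨_, rfl⟩)
  · exact Submodule.subset_span (Or.inr rfl)

theorem golayCode_eq_span_gen : golayCode = Submodule.span (ZMod 2) (Set.range golayGen) := by
  refine le_antisymm (Submodule.span_le.2 ?_) (Submodule.span_le.2 ?_)
  · rintro w (⟨t, rfl⟩ | rfl)
    · refine Submodule.subset_span ⟨⟨t.val, lt_of_lt_of_le (ZMod.val_lt t) (by norm_num)⟩, ?_⟩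
      simp [golayGen, ZMod.val_lt t, ZMod.natCast_rightInverse t]
    · exact Submodule.subset_span ⟨23, by simp [golayGen]⟩
  · rintro w ⟨i, rfl⟩
    exact golayGen_mem i

theorem golayGen_dot : ∀ i j : Fin 24, ∑ p, golayGen i p * golayGen j p = 0 := by
  decide +kernel

theorem golayGen_weight : ∀ i : Fin 24, (∑ p, (golayGen i p).val) % 4 = 0 := by
  decide +kernel

theorem golay_dot {c d : GolayPt → ZMod 2} (hc : c ∈ golayCode) (hd : d ∈ golayCode) :
    ∑ p, c p * d p = 0 := by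
  rw [golayCode_eq_span_gen] at hc hd
  induction hc, hd using Submodule.span_induction₂ with
  | mem_mem x y hx hy =>
    obtain ⟨i, rfl⟩ := hx
    obtain ⟨j, rfl⟩ := hy
    exact golayGen_dot i j
  | zero_left y hy => simp
  | zero_right x hx => simp
  | add_left x y z _ _ _ h₁ h₂ => simp [add_mul, Finset.sum_add_distrib, h₁, h₂]
  | add_right x y z _ _ _ h₁ h₂ => simp [mul_add, Finset.sum_add_distrib, h₁, h₂]
  | smul_left r x y _ _ h => simp [mul_assoc, ← Finset.mul_sum, h]
  | smul_right r x y _ _ h => simp [mul_left_comm, ← Finset.mul_sum, h]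

/-- The 0/1 integer lift of a binary word. -/
def liftZ (c : GolayPt → ZMod 2) : GolayPt → ℤ := fun p => ((c p).val : ℤ)

theorem liftZ_cast (c : GolayPt → ZMod 2) (p : GolayPt) : ((liftZ c p : ℤ) : ZMod 2) = c p := by
  simp [liftZ]

theorem zmod2_cases (a : ZMod 2) : a = 0 ∨ a = 1 := by revert a; decide

theorem liftZ_add (c d : GolayPt → ZMod 2) (p : GolayPt) :
    liftZ (c + d) p = liftZ c p + liftZ d p - 2 * liftZ (c * d) p := by
  simp only [liftZ, Pi.add_apply, Pi.mul_apply]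
  rcases zmod2_cases (c p) with h | h <;> rcases zmod2_cases (d p) with h' | h' <;>
    simp [h, h'] <;> decide

theorem two_dvd_sum_liftZ_mul {c d : GolayPt → ZMod 2} (hc : c ∈ golayCode) (hd : d ∈ golayCode) :
    (2 : ℤ) ∣ ∑ p, liftZ (c * d) p := by
  have h := golay_dot hc hd
  rw [show (2 : ℤ) = ((2 : ℕ) : ℤ) from rfl, ← ZMod.intCast_zmod_eq_zero_iff_dvd]
  push_cast
  simpa [liftZ_cast] using h

theorem four_dvd_sum_liftZ {c : GolayPt → ZMod 2} (hc : c ∈ golayCode) :
    (4 : ℤ) ∣ ∑ p, liftZ c p := by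
  have key : ∀ c ∈ golayCode, (4 : ℤ) ∣ ∑ p, liftZ c p := by
    intro c hc
    rw [golayCode_eq_span_gen] at hc
    induction hc using Submodule.span_induction with
    | mem x hx =>
      obtain ⟨i, rfl⟩ := hx
      obtain ⟨k, hk⟩ := Nat.dvd_of_mod_eq_zero (golayGen_weight i)
      refine ⟨(k : ℤ), ?_⟩
      unfold liftZ
      rw [← Nat.cast_sum, hk, Nat.cast_mul]
      rfl
    | zero => simp [liftZ]
    | add x y hx hy h₁ h₂ =>
      rw [← golayCode_eq_span_gen] at hx hy
      obtain ⟨k, hk⟩ := two_dvd_sum_liftZ_mul hx hy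
      obtain ⟨a, ha⟩ := h₁
      obtain ⟨b, hb⟩ := h₂
      have e : ∑ p, liftZ (x + y) p = (∑ p, liftZ x p) + (∑ p, liftZ y p) - 2 * ∑ p, liftZ (x * y) p := by
        rw [Finset.mul_sum, ← Finset.sum_add_distrib, ← Finset.sum_sub_distrib]
        exact Finset.sum_congr rfl fun p _ => liftZ_add x y p
      refine ⟨a + b - k, ?_⟩
      rw [e, ha, hb, hk]
      ring
    | smul r x _ h =>
      rcases zmod2_cases r with rfl | rfl
      · simp [liftZ]
      · simpa using h
  exact key c hc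

/-- A 12-set of points: the extra point and the residues 0 to 10. -/
def twelvePt (i : Fin 12) : GolayPt :=
  if i.val = 0 then none else some ((i.val - 1 : ℕ) : ZMod 23)

theorem twelvePt_injective : Function.Injective twelvePt := by decide +kernel

/-- A word supported on the 12-set. -/
def twelveWord (a : Fin 12 → ZMod 2) : GolayPt → ZMod 2 :=
  fun p => ∑ i, if twelvePt i = p then a i else 0

theorem twelveWord_dot (a : Fin 12 → ZMod 2) (d : GolayPt → ZMod 2) :
    ∑ p, twelveWord a p * d p = ∑ i, a i * d (twelvePt i) := by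
  simp only [twelveWord, Finset.sum_mul]
  rw [Finset.sum_comm]
  refine Finset.sum_congr rfl fun i _ => ?_
  simp [ite_mul]

/-- For each position of the 12-set, generators adding up to a word that restricts to that position. -/
def unitCert : Fin 12 → List (Fin 24) :=
  ![[0, 2, 5, 9, 10, 23], [2, 3, 7], [3, 4, 8], [2, 3, 4, 5, 7, 9], [3, 4, 5, 6, 8, 10], [0, 1, 2, 3, 4, 7],
    [1, 4, 5, 7, 8], [3, 5, 6, 7, 8, 9], [4, 6, 7, 8, 9, 10], [0, 1, 6, 8, 10], [0, 2, 5, 6], [1, 2, 6]]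

theorem unitCert_spec : ∀ i j : Fin 12,
    ((unitCert i).map fun g => golayGen g (twelvePt j)).sum = if i = j then (1 : ZMod 2) else 0 := by
  decide +kernel

theorem list_map_sum_apply (l : List (Fin 24)) (f : Fin 24 → GolayPt → ZMod 2) (p : GolayPt) :
    (l.map f).sum p = (l.map fun g => f g p).sum := by
  induction l with
  | nil => rfl
  | cons g l ih => simp [ih]

theorem twelve_orth_eq_zero (a : Fin 12 → ZMod 2)
    (h : ∀ c ∈ golayCode, ∑ p, c p * twelveWord a p = 0) : a = 0 := by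
  funext i
  have hc : ((unitCert i).map golayGen).sum ∈ golayCode :=
    list_sum_mem (by simp only [List.mem_map]; rintro _ ⟨g, -, rfl⟩; exact golayGen_mem g)
  have e := h _ hc
  rw [Finset.sum_congr rfl (fun p _ => mul_comm _ _), twelveWord_dot] at e
  simpa [list_map_sum_apply, unitCert_spec] using e

/-- For each residue, a list of pairs of generators whose products add up to that point and the extra point. -/
def pairCert : Fin 23 → List (Fin 24 × Fin 24) :=
  ![
    [(0, 1), (0, 2), (0, 3), (0, 5), (0, 7), (0, 8), (0, 9), (1, 1), (1, 3), (1, 4), (3, 3), (4, 4), (23, 23)],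
    [(0, 3), (0, 7), (0, 8), (0, 9), (1, 1), (1, 3), (1, 4), (3, 3), (4, 4), (23, 23)],
    [(0, 1), (0, 3), (0, 4), (0, 5), (0, 7), (0, 8), (0, 9), (0, 10), (1, 1), (1, 3), (1, 4), (3, 3), (4, 4), (23, 23)],
    [(0, 1), (0, 3), (0, 4), (0, 6), (0, 9), (0, 10), (1, 1), (1, 3), (1, 4), (3, 3), (4, 4), (23, 23)],
    [(0, 0), (0, 1), (0, 3), (0, 5), (0, 10), (1, 1), (1, 3), (1, 4), (3, 3), (4, 4), (23, 23)],
    [(0, 0), (0, 1), (0, 4), (0, 6), (0, 8), (0, 9), (1, 1), (1, 2), (1, 3), (1, 5), (3, 3), (4, 4), (23, 23)],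
    [(0, 3), (0, 5), (0, 7), (0, 9), (0, 10), (1, 1), (1, 3), (1, 4), (3, 3), (4, 4), (23, 23)],
    [(0, 3), (0, 4), (0, 5), (0, 7), (0, 8), (0, 9), (0, 10), (1, 3), (1, 4), (1, 5), (1, 7), (3, 3), (4, 4), (23, 23)],
    [(0, 0), (0, 1), (1, 1), (1, 3), (1, 4), (3, 3), (4, 4), (23, 23)],
    [(0, 0), (0, 1), (0, 4), (0, 5), (0, 7), (0, 9), (1, 1), (1, 3), (1, 4), (3, 3), (4, 4), (23, 23)],
    [(0, 1), (0, 3), (0, 5), (0, 6), (0, 9), (1, 1), (1, 2), (1, 5), (1, 7), (3, 3), (4, 4), (23, 23)],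
    [(0, 1), (0, 2), (0, 3), (0, 5), (0, 6), (0, 9), (1, 1), (1, 5), (1, 7), (2, 5), (3, 3), (4, 4), (23, 23)],
    [(0, 2), (0, 4), (0, 5), (0, 7), (0, 10), (1, 1), (1, 3), (1, 4), (3, 3), (4, 4), (23, 23)],
    [(0, 1), (0, 4), (0, 5), (0, 6), (0, 7), (0, 10), (1, 1), (1, 3), (1, 4), (3, 3), (4, 4), (23, 23)],
    [(0, 1), (0, 4), (0, 5), (0, 6), (0, 7), (0, 10), (1, 1), (1, 2), (1, 4), (1, 7), (3, 3), (4, 4), (23, 23)],
    [(0, 2), (0, 5), (0, 6), (0, 7), (0, 8), (0, 10), (1, 1), (1, 2), (1, 4), (1, 7), (2, 3), (2, 5), (3, 3), (4, 4), (23, 23)],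
    [(0, 1), (0, 2), (0, 4), (0, 6), (0, 7), (0, 9), (1, 1), (1, 3), (1, 4), (3, 3), (4, 4), (23, 23)],
    [(0, 3), (0, 4), (0, 6), (0, 9), (0, 10), (1, 5), (3, 3), (4, 4), (23, 23)],
    [(0, 2), (0, 5), (0, 6), (0, 8), (0, 9), (1, 1), (1, 3), (1, 4), (3, 3), (4, 4), (23, 23)],
    [(0, 0), (0, 3), (0, 5), (0, 10), (1, 2), (1, 7), (3, 3), (4, 4), (23, 23)],
    [(0, 0), (0, 2), (0, 6), (0, 9), (1, 1), (1, 3), (1, 5), (2, 2), (2, 3), (3, 3), (4, 4), (23, 23)],
    [(0, 6), (0, 8), (0, 9), (0, 10), (1, 1), (1, 2), (1, 5), (2, 3), (4, 4), (23, 23)],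
    [(0, 2), (0, 3), (0, 7), (0, 9), (1, 1), (1, 3), (1, 4), (1, 5), (2, 2), (2, 3), (3, 3), (23, 23)]]

theorem pairCert_spec : ∀ (k : Fin 23) (p : GolayPt),
    (((pairCert k).map fun st => golayGen st.1 p * golayGen st.2 p).sum : ZMod 2) =
      if p = none ∨ p = some (k.val : ZMod 23) then 1 else 0 := by
  decide +kernel

end Cfsg.Agent.Monster
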