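import Cfsg.Prelude.Def_Spor_Conway
import Cfsg.Agent.Monster.GolayBasic

/-!
Explicit generators of the Leech lattice, a congruence invariant, and the sign changes on code words as automorphisms.
-/

set_option autoImplicit false

namespace Cfsg.Agent.Monster

open Cfsg

theorem liftZ_word_eq {c : GolayPt → ZMod 2} {p : GolayPt} : liftZ c p = if c p = 1 then 1 else 0 := by
  unfold liftZ
  rcases zmod2_cases (c p) with h | h <;> rw [h] <;> rfl

theorem four_smul_mem_leechLattice {x : GolayPt → ℤ} (hx : 2 ∣ ∑ p, x p) :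
    (4 : ℤ) • x ∈ leechLattice := by
  refine AddSubgroup.subset_closure (Spor.mem_leechSet_of_const_mod_four _ 0 0 (Int.ModEq.refl _) ?_ ?_)
  · intro i
    simp [Int.modEq_zero_iff_dvd]
  · obtain ⟨k, hk⟩ := hx
    simp only [Pi.smul_apply, smul_eq_mul, ← Finset.mul_sum, hk, mul_zero]
    exact Int.modEq_zero_iff_dvd.2 ⟨k, by ring⟩

theorem two_liftZ_mem_leechLattice {c : GolayPt → ZMod 2} (hc : c ∈ golayCode) :
    (2 : ℤ) • liftZ c ∈ leechLattice := by
  refine AddSubgroup.subset_closure ⟨0, fun i => ?_, ?_, fun k => ?_⟩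
  · simp [Int.modEq_zero_iff_dvd]
  · obtain ⟨j, hj⟩ := four_dvd_sum_liftZ hc
    simp only [Pi.smul_apply, smul_eq_mul, ← Finset.mul_sum, hj, mul_zero]
    exact Int.modEq_zero_iff_dvd.2 ⟨j, by ring⟩
  · by_cases h2 : k % 4 = 2
    · refine ⟨c, hc, ?_⟩
      ext p
      rcases zmod2_cases (c p) with h | h <;>
        simp [support₂, liftZ_word_eq, h, Int.ModEq] <;> omega
    · by_cases h0 : k % 4 = 0
      · refine ⟨c + 1, add_mem hc (Submodule.subset_span (Or.inr rfl)), ?_⟩
        ext p
        rcases zmod2_cases (c p) with h | h <;>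
          simp [support₂, liftZ_word_eq, h, Int.ModEq, show (1 + 1 : ZMod 2) = 0 from by decide] <;> omega
      · refine ⟨0, zero_mem _, ?_⟩
        ext p
        rcases zmod2_cases (c p) with h | h <;>
          simp [support₂, liftZ_word_eq, h, Int.ModEq] <;> omega

theorem vecV_mem_leechLattice : Spor.vecV ∈ leechLattice :=
  AddSubgroup.subset_closure Spor.vecV_mem_leechSet

/-- The lattice vector `4 x` for a vector `x` of even coordinate sum. -/
def wVec (x : GolayPt → ℤ) (hx : 2 ∣ ∑ p, x p) : leechLattice := ⟨_, four_smul_mem_leechLattice hx⟩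

/-- The lattice vector `2 c` for a code word `c`. -/
def cVec (c : GolayPt → ZMod 2) (hc : c ∈ golayCode) : leechLattice := ⟨_, two_liftZ_mem_leechLattice hc⟩

/-- The unit vector at the extra point. -/
def deltaInf : GolayPt → ℤ := fun p => if p = none then 1 else 0

theorem sum_two_deltaInf : (2 : ℤ) ∣ ∑ p, ((2 : ℤ) • deltaInf) p := by decide

/-- The lattice vector 8 at the extra point. -/
def wZero : leechLattice := wVec ((2 : ℤ) • deltaInf) sum_two_deltaInf

/-- The invariant of the members of the lattice: equal parities, sum, and the word of halved differences. -/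
def LeechInv (v : GolayPt → ℤ) : Prop :=
  (∀ i, (2 : ℤ) ∣ v i - v none) ∧ (8 : ℤ) ∣ (∑ i, v i) - 4 * v none ∧
    ∀ c ∈ golayCode, ∑ i, c i * (((v i - v none) / 2 : ℤ) : ZMod 2) = 0

theorem leechInv_of_mem {v : GolayPt → ℤ} (hv : v ∈ leechLattice) : LeechInv v := by
  unfold leechLattice at hv
  induction hv using AddSubgroup.closure_induction with
  | mem x hx =>
    obtain ⟨m, hm, hs, hk⟩ := hx
    simp only [Int.ModEq] at hm hs
    refine ⟨fun i => ?_, ?_, fun c hc => ?_⟩
    · have := hm i
      have := hm none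
      omega
    · have := hm none
      omega
    · obtain ⟨w, hw, hsupp⟩ := hk (x none + 2)
      rw [← golay_dot hc hw]
      refine Finset.sum_congr rfl fun i _ => ?_
      have hi := Finset.ext_iff.1 hsupp i
      simp only [support₂, Finset.mem_filter, Finset.mem_univ, true_and] at hi
      simp only [Int.ModEq] at hi
      have := hm i
      have := hm none
      congr 1
      rcases zmod2_cases (w i) with h | h
      · rw [h] at hi ⊢
        simp at hi
        rw [ZMod.intCast_zmod_eq_zero_iff_dvd]
        omega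
      · rw [h] at hi ⊢
        simp at hi
        rw [← Int.cast_one, ZMod.intCast_eq_intCast_iff']
        omega
  | zero => simp [LeechInv]
  | add x y _ _ h₁ h₂ =>
    obtain ⟨a₁, b₁, c₁⟩ := h₁
    obtain ⟨a₂, b₂, c₂⟩ := h₂
    refine ⟨fun i => ?_, ?_, fun c hc => ?_⟩
    · have := a₁ i
      have := a₂ i
      simp only [Pi.add_apply]
      omega
    · simp only [Pi.add_apply, Finset.sum_add_distrib]
      omega
    · have e : ∀ i, ((x + y) i - (x + y) none) / 2 = (x i - x none) / 2 + (y i - y none) / 2 := by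
        intro i
        have := a₁ i
        have := a₂ i
        simp only [Pi.add_apply]
        omega
      simp only [e, Int.cast_add, mul_add, Finset.sum_add_distrib, c₁ c hc, c₂ c hc, add_zero]
  | neg x _ h =>
    obtain ⟨a, b, c'⟩ := h
    refine ⟨fun i => ?_, ?_, fun c hc => ?_⟩
    · have := a i
      simp only [Pi.neg_apply]
      omega
    · simp only [Pi.neg_apply, Finset.sum_neg_distrib]
      omega
    · have e : ∀ i, ((-x) i - (-x) none) / 2 = -((x i - x none) / 2) := by
        intro i
        have := a i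
        simp only [Pi.neg_apply]
        omega
      simp only [e, Int.cast_neg, mul_neg, Finset.sum_neg_distrib, c' c hc, neg_zero]

theorem leechSet_decomp {v : GolayPt → ℤ} (hv : v ∈ leechSet) :
    ∃ (a : ℤ) (c : GolayPt → ZMod 2) (_ : c ∈ golayCode) (x : GolayPt → ℤ),
      2 ∣ (∑ p, x p) ∧ v = a • Spor.vecV + (2 : ℤ) • liftZ c + (4 : ℤ) • x := by
  obtain ⟨m, hm, hs, hk⟩ := id hv
  obtain ⟨c, hc, hsupp⟩ := hk (v none + 2)
  have hci : ∀ i, (4 : ℤ) ∣ (v + v none • Spor.vecV - (2 : ℤ) • liftZ c) i := by
    intro i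
    have hi := Finset.ext_iff.1 hsupp i
    simp only [support₂, Finset.mem_filter, Finset.mem_univ, true_and] at hi
    simp only [Int.ModEq] at hi
    have h1 := hm i
    have h2 := hm none
    simp only [Int.ModEq] at h1 h2
    simp only [Pi.sub_apply, Pi.add_apply, Pi.smul_apply, smul_eq_mul, Spor.vecV, liftZ_word_eq]
    by_cases hp : i = none
    · subst hp
      rcases zmod2_cases (c none) with h | h <;> rw [h] at hi ⊢ <;> simp at hi ⊢ <;> omega
    · simp only [if_neg hp]
      rcases zmod2_cases (c i) with h | h <;> rw [h] at hi ⊢ <;> simp at hi ⊢ <;> omega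
  choose x hx using hci
  refine ⟨-(v none), c, hc, x, ?_, ?_⟩
  · have hmem : v + v none • Spor.vecV - (2 : ℤ) • liftZ c ∈ leechLattice :=
      sub_mem (add_mem (AddSubgroup.subset_closure hv) (zsmul_mem vecV_mem_leechLattice _))
        (two_liftZ_mem_leechLattice hc)
    obtain ⟨-, h8, -⟩ := leechInv_of_mem hmem
    rw [Finset.sum_congr rfl (fun i _ => hx i), ← Finset.mul_sum, hx none] at h8
    omega
  · funext i
    have := hx i
    simp only [Pi.sub_apply, Pi.add_apply, Pi.smul_apply, smul_eq_mul] at this ⊢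
    linarith

theorem leech_induction {P : leechLattice → Prop} (h0 : P 0) (hadd : ∀ v w, P v → P w → P (v + w))
    (hneg : ∀ v, P v → P (-v)) (hV : P Spor.leechV) (hC : ∀ c hc, P (cVec c hc))
    (hW : ∀ x hx, P (wVec x hx)) (v : leechLattice) : P v := by
  have hsmul : ∀ a : ℤ, P (a • Spor.leechV) := by
    intro a
    induction a using Int.induction_on with
    | zero => rwa [zero_smul]
    | succ n ih => rw [add_smul, one_smul]; exact hadd _ _ ih hV
    | pred n ih => rw [sub_smul, one_smul, sub_eq_add_neg]; exact hadd _ _ ih (hneg _ hV)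
  obtain ⟨v, hv⟩ := v
  unfold leechLattice at hv
  induction hv using AddSubgroup.closure_induction with
  | mem x hx =>
    obtain ⟨a, c, hc, y, hy, e⟩ := leechSet_decomp hx
    have := hadd _ _ (hadd _ _ (hsmul a) (hC c hc)) (hW y hy)
    convert this using 1
    exact Subtype.ext e
  | zero => exact h0
  | add x y hx hy h₁ h₂ => exact hadd _ _ h₁ h₂
  | neg x hx h => exact hneg _ h

/-- The sign change on the support of a word, on integer vectors. -/
def signVec (c : GolayPt → ZMod 2) (v : GolayPt → ℤ) : GolayPt → ℤ :=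
  fun p => if c p = 1 then -v p else v p

theorem signVec_add (c : GolayPt → ZMod 2) (v w : GolayPt → ℤ) :
    signVec c (v + w) = signVec c v + signVec c w := by
  funext p
  simp only [signVec, Pi.add_apply]
  split <;> ring

theorem signVec_signVec (c : GolayPt → ZMod 2) (v : GolayPt → ℤ) : signVec c (signVec c v) = v := by
  funext p
  simp only [signVec]
  split <;> simp

theorem signVec_vecV (c : GolayPt → ZMod 2) :
    signVec c Spor.vecV = Spor.vecV + (2 : ℤ) • liftZ c + (4 : ℤ) • ((2 * liftZ c none) • deltaInf) := by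
  funext p
  simp only [signVec, Spor.vecV, Pi.add_apply, Pi.smul_apply, smul_eq_mul, deltaInf]
  by_cases hp : p = none
  · subst hp
    rcases zmod2_cases (c none) with h | h <;> simp [liftZ_word_eq, h]
  · rcases zmod2_cases (c p) with h | h <;> simp [liftZ_word_eq, h, hp]

theorem signVec_four_smul (c : GolayPt → ZMod 2) (x : GolayPt → ℤ) :
    signVec c ((4 : ℤ) • x) = (4 : ℤ) • x + (4 : ℤ) • ((-2 : ℤ) • (liftZ c * x)) := by
  funext p
  simp only [signVec, Pi.add_apply, Pi.smul_apply, Pi.mul_apply, smul_eq_mul]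
  rcases zmod2_cases (c p) with h | h <;> simp [liftZ_word_eq, h]; ring

theorem signVec_two_liftZ (c d : GolayPt → ZMod 2) :
    signVec c ((2 : ℤ) • liftZ d) = (2 : ℤ) • liftZ d + (4 : ℤ) • (-(liftZ (c * d))) := by
  funext p
  simp only [signVec, Pi.add_apply, Pi.smul_apply, Pi.neg_apply, smul_eq_mul]
  rcases zmod2_cases (c p) with h | h <;> rcases zmod2_cases (d p) with h' | h' <;>
    simp [liftZ_word_eq, h, h']

theorem sum_even_signV (c : GolayPt → ZMod 2) : (2 : ℤ) ∣ ∑ p, ((2 * liftZ c none) • deltaInf) p := by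
  refine Finset.dvd_sum fun p _ => ?_
  simp only [Pi.smul_apply, smul_eq_mul]
  exact dvd_mul_of_dvd_left (dvd_mul_right _ _) _

theorem sum_even_signW (c : GolayPt → ZMod 2) (x : GolayPt → ℤ) :
    (2 : ℤ) ∣ ∑ p, ((-2 : ℤ) • (liftZ c * x)) p := by
  refine Finset.dvd_sum fun p _ => ?_
  simp only [Pi.smul_apply, smul_eq_mul]
  exact dvd_mul_of_dvd_left ⟨-1, by norm_num⟩ _

theorem sum_even_signC {c d : GolayPt → ZMod 2} (hc : c ∈ golayCode) (hd : d ∈ golayCode) :
    (2 : ℤ) ∣ ∑ p, (-(liftZ (c * d))) p := by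
  simp only [Pi.neg_apply, Finset.sum_neg_distrib, dvd_neg]
  exact two_dvd_sum_liftZ_mul hc hd

theorem signVec_mem {c : GolayPt → ZMod 2} (hc : c ∈ golayCode) (v : leechLattice) :
    signVec c (v : GolayPt → ℤ) ∈ leechLattice := by
  refine leech_induction (P := fun v : leechLattice => signVec c (v : GolayPt → ℤ) ∈ leechLattice)
    ?_ ?_ ?_ ?_ ?_ ?_ v
  · convert zero_mem leechLattice using 1
    funext p
    simp [signVec]
  · intro v w hv hw
    show signVec c ((v : GolayPt → ℤ) + (w : GolayPt → ℤ)) ∈ leechLattice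
    rw [signVec_add]
    exact add_mem hv hw
  · intro v hv
    convert neg_mem hv using 1
    funext p
    simp only [signVec, AddSubgroup.coe_neg, Pi.neg_apply]
    split <;> simp
  · show signVec c Spor.vecV ∈ leechLattice
    rw [signVec_vecV]
    exact add_mem (add_mem vecV_mem_leechLattice (two_liftZ_mem_leechLattice hc))
      (four_smul_mem_leechLattice (sum_even_signV c))
  · intro d hd
    show signVec c ((2 : ℤ) • liftZ d) ∈ leechLattice
    rw [signVec_two_liftZ]
    exact add_mem (two_liftZ_mem_leechLattice hd) (four_smul_mem_leechLattice (sum_even_signC hc hd))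
  · intro x hx
    show signVec c ((4 : ℤ) • x) ∈ leechLattice
    rw [signVec_four_smul]
    exact add_mem (four_smul_mem_leechLattice hx) (four_smul_mem_leechLattice (sum_even_signW c x))

/-- The sign change on the lattice. -/
def signPerm (c : GolayPt → ZMod 2) (hc : c ∈ golayCode) : Equiv.Perm leechLattice where
  toFun v := ⟨signVec c v, signVec_mem hc v⟩
  invFun v := ⟨signVec c v, signVec_mem hc v⟩
  left_inv v := Subtype.ext (signVec_signVec c v)
  right_inv v := Subtype.ext (signVec_signVec c v)

theorem signPerm_mem_Co0 (c : GolayPt → ZMod 2) (hc : c ∈ golayCode) : signPerm c hc ∈ Co0 := by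
  refine ⟨fun v w => Subtype.ext (signVec_add c v w), fun v => ?_⟩
  show sqNorm (signVec c (v : GolayPt → ℤ)) = sqNorm (v : GolayPt → ℤ)
  unfold sqNorm
  refine Finset.sum_congr rfl fun p _ => ?_
  simp only [signVec]
  split <;> ring

/-- The sign change as an automorphism of the lattice. -/
def signCo0 (c : GolayPt → ZMod 2) (hc : c ∈ golayCode) : Co0 := ⟨signPerm c hc, signPerm_mem_Co0 c hc⟩

theorem coe_signCo0_smul (c : GolayPt → ZMod 2) (hc : c ∈ golayCode) (v : leechLattice) :
    ((signCo0 c hc • v : leechLattice) : GolayPt → ℤ) = signVec c v := rfl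

theorem signCo0_smul_leechV (c : GolayPt → ZMod 2) (hc : c ∈ golayCode) :
    signCo0 c hc • Spor.leechV = Spor.leechV + cVec c hc + wVec _ (sum_even_signV c) :=
  Subtype.ext (signVec_vecV c)

theorem signCo0_smul_cVec {c d : GolayPt → ZMod 2} (hc : c ∈ golayCode) (hd : d ∈ golayCode) :
    signCo0 c hc • cVec d hd = cVec d hd + wVec _ (sum_even_signC hc hd) :=
  Subtype.ext (signVec_two_liftZ c d)

theorem signCo0_smul_wVec (c : GolayPt → ZMod 2) (hc : c ∈ golayCode) (x : GolayPt → ℤ) (hx : 2 ∣ ∑ p, x p) :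
    signCo0 c hc • wVec x hx = wVec x hx + wVec _ (sum_even_signW c x) :=
  Subtype.ext (signVec_four_smul c x)

end Cfsg.Agent.Monster
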