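import Cfsg.Agent.Leech.ModTwo
import Cfsg.Agent.Golay.MathieuSimple

/-!
The normal 2-subgroups of the stabilisers in `Co0` of a cross and of a class of norm-4 vectors modulo 2.
-/

set_option autoImplicit false

namespace Cfsg.Agent.Monster

open Cfsg Cfsg.Agent.Leech Cfsg.Agent.Golay
open scoped Pointwise

theorem perm_inv_apply {α : Type*} (f : Equiv.Perm α) (x : α) : f⁻¹ (f x) = x := f.symm_apply_apply x

theorem perm_apply_inv {α : Type*} (f : Equiv.Perm α) (x : α) : f (f⁻¹ x) = x := f.apply_symm_apply x

/-- The stabiliser of a class modulo twice the lattice. -/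
def classStab (v : leechLattice) : Subgroup Co0 where
  carrier := {g | Cong (g • v).1 v.1}
  one_mem' := by simp only [Set.mem_ofPred_eq, one_smul]; exact Cong.refl _
  mul_mem' := fun {g h} hg hh => by
    simp only [Set.mem_ofPred_eq, mul_smul] at hg hh ⊢
    exact (cong_smul g hh).trans hg
  inv_mem' := fun {g} hg => by
    simp only [Set.mem_ofPred_eq] at hg ⊢
    have := cong_smul g⁻¹ hg
    rw [inv_smul_smul] at this
    exact this.symm

theorem mem_classStab {v : leechLattice} {g : Co0} : g ∈ classStab v ↔ Cong (g • v).1 v.1 := Iff.rfl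

theorem classStab_smul {g : Co0} {v : leechLattice} {h : Co0} :
    h ∈ classStab (g • v) ↔ g⁻¹ * h * g ∈ classStab v := by
  rw [mem_classStab, mem_classStab, mul_smul, mul_smul]
  constructor
  · intro H
    have := cong_smul g⁻¹ H
    rwa [inv_smul_smul] at this
  · intro H
    have := cong_smul g H
    rwa [smul_inv_smul] at this

theorem co0_ext {g h : Co0} (e : ∀ x : leechLattice, (g • x).1 = (h • x).1) : g = h :=
  Subtype.ext (Equiv.ext fun x => Subtype.ext (e x))

/-- The stabiliser of the standard cross. -/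
abbrev crossStab : Subgroup Co0 := classStab (crossL none)

/-- A vector on the line of the cross vector at `k`. -/
def OnLine (w : GolayPt → ℤ) (k : GolayPt) : Prop := w = Leech.cross k ∨ w = -Leech.cross k

theorem OnLine.unique {w : GolayPt → ℤ} {k l : GolayPt} (h : OnLine w k) (h' : OnLine w l) : k = l := by
  by_contra hne
  have e1 : w k = 8 ∨ w k = -8 := by rcases h with rfl | rfl <;> simp [Leech.cross]
  have e2 : w k = 0 := by rcases h' with rfl | rfl <;> simp [Leech.cross, hne]
  omega

theorem crossStab_line {g : Co0} (hg : g ∈ crossStab) (j : GolayPt) : ∃ k, OnLine (g • crossL j).1 k := by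
  refine cross_of_congr (g • crossL j).2 ((g.2.2 (crossL j)).trans (sqNorm_cross j)) ?_
  exact (mem_classStab.1 hg).symm.trans (cong_smul g (x := crossL none) (y := crossL j) (cross_sub_mem none j))

/-- The image of a point. -/
noncomputable def linePt (g : crossStab) (j : GolayPt) : GolayPt := Classical.choose (crossStab_line g.2 j)

theorem linePt_spec (g : crossStab) (j : GolayPt) : OnLine ((g : Co0) • crossL j).1 (linePt g j) :=
  Classical.choose_spec (crossStab_line g.2 j)

theorem linePt_mul (g h : crossStab) (j : GolayPt) : linePt (g * h) j = linePt g (linePt h j) := by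
  refine (linePt_spec (g * h) j).unique ?_
  rw [Subgroup.coe_mul, mul_smul]
  rcases linePt_spec h j with e | e
  · rw [show (h : Co0) • crossL j = crossL (linePt h j) from Subtype.ext e]
    exact linePt_spec g _
  · rw [show (h : Co0) • crossL j = -crossL (linePt h j) from Subtype.ext e, co0_neg]
    rcases linePt_spec g (linePt h j) with e' | e'
    · exact Or.inr (by rw [AddSubgroup.coe_neg, e'])
    · exact Or.inl (by rw [AddSubgroup.coe_neg, e', neg_neg])

theorem linePt_one (j : GolayPt) : linePt 1 j = j :=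
  (linePt_spec 1 j).unique (Or.inl (by rw [Subgroup.coe_one, one_smul]; rfl))

/-- The permutation part of the cross stabiliser. -/
noncomputable def permHom : crossStab →* Equiv.Perm GolayPt :=
  MonoidHom.mk' (fun g => ⟨linePt g, linePt g⁻¹, fun j => by rw [← linePt_mul, inv_mul_cancel, linePt_one],
      fun j => by rw [← linePt_mul, mul_inv_cancel, linePt_one]⟩)
    fun g h => Equiv.ext fun j => linePt_mul g h j

theorem permHom_apply (g : crossStab) (j : GolayPt) : permHom g j = linePt g j := rfl

theorem crossStab_monomial (g : crossStab) :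
    permHom g ∈ M24 ∧ ∃ c ∈ supports (golayCode : Set (GolayPt → ZMod 2)),
      ∀ x : leechLattice, ((g : Co0) • x).1 = flipOn c (x.1 ∘ ⇑((permHom g)⁻¹)) := by
  obtain ⟨σ, hσ, c, hc, hg⟩ := exists_monomial (g : Co0) (crossStab_line g.2)
  have e : permHom g = σ⁻¹ := by
    refine Equiv.ext fun j => (linePt_spec g j).unique ?_
    have h1 : ((g : Co0) • crossL j).1 = (monomial hσ hc • crossL j).1 := by rw [hg, monomial_smul]
    rw [monomial_smul_cross] at h1
    rw [h1]
    show OnLine _ (σ.symm j)
    split
    · exact Or.inr rfl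
    · exact Or.inl rfl
  exact ⟨e ▸ inv_mem hσ, c, hc, fun x => by rw [e, inv_inv]; exact hg x⟩

theorem empty_support : (∅ : Finset GolayPt) ∈ supports (golayCode : Set (GolayPt → ZMod 2)) :=
  ⟨0, zero_mem _, by simp [support₂]⟩

theorem monomial_mem {σ : Equiv.Perm GolayPt} (hσ : σ ∈ M24) {c : Finset GolayPt}
    (hc : c ∈ supports (golayCode : Set (GolayPt → ZMod 2))) : monomial hσ hc ∈ crossStab := by
  rw [mem_classStab, monomial_smul_cross]
  split
  · have h1 : Cong (Leech.cross (σ.symm none)) (-Leech.cross (σ.symm none)) := cong_neg (cross_mem _)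
    exact h1.symm.trans (Cong.symm (cross_sub_mem none (σ.symm none)))
  · exact Cong.symm (cross_sub_mem none (σ.symm none))

theorem permHom_monomial {σ : Equiv.Perm GolayPt} (hσ : σ ∈ M24) {c : Finset GolayPt}
    (hc : c ∈ supports (golayCode : Set (GolayPt → ZMod 2))) :
    permHom ⟨monomial hσ hc, monomial_mem hσ hc⟩ = σ⁻¹ := by
  refine Equiv.ext fun j => (linePt_spec _ j).unique ?_
  rw [monomial_smul_cross]
  show OnLine _ (σ.symm j)
  split
  · exact Or.inr rfl
  · exact Or.inl rfl

theorem range_permHom : permHom.range = M24 := by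
  refine le_antisymm ?_ fun τ hτ =>
    ⟨⟨monomial (inv_mem hτ) empty_support, monomial_mem (inv_mem hτ) empty_support⟩, ?_⟩
  · rintro _ ⟨g, rfl⟩
    exact (crossStab_monomial g).1
  · rw [permHom_monomial, inv_inv]

/-- The sign changes. -/
noncomputable def signs : Subgroup Co0 := permHom.ker.map crossStab.subtype

theorem signs_le : signs ≤ crossStab := Subgroup.map_subtype_le _

theorem mem_signs {g : Co0} : g ∈ signs ↔ ∃ c, ∃ hc : c ∈ supports (golayCode : Set (GolayPt → ZMod 2)),
    g = monomial (one_mem M24) hc := by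
  constructor
  · rintro ⟨g, hg, rfl⟩
    obtain ⟨-, c, hc, h⟩ := crossStab_monomial g
    refine ⟨c, hc, co0_ext fun x => ?_⟩
    show ((g : Co0) • x).1 = _
    rw [h x, MonoidHom.mem_ker.1 hg, monomial_smul, inv_one]
  · rintro ⟨c, hc, rfl⟩
    exact ⟨⟨_, monomial_mem (one_mem M24) hc⟩, MonoidHom.mem_ker.2 (by rw [permHom_monomial (one_mem M24), inv_one]),
      rfl⟩

theorem signs_comm {g h : Co0} (hg : g ∈ signs) (hh : h ∈ signs) : g * h = h * g ∧ g * g = 1 := by
  obtain ⟨c, hc, rfl⟩ := mem_signs.1 hg
  obtain ⟨d, hd, rfl⟩ := mem_signs.1 hh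
  constructor <;> refine co0_ext fun x => ?_ <;> funext p
  · simp only [mul_smul, monomial_smul, flipOn, Function.comp_apply, Equiv.Perm.coe_one, id_eq]
    split_ifs <;> ring
  · simp only [mul_smul, monomial_smul, flipOn, Function.comp_apply, Equiv.Perm.coe_one, id_eq, one_smul]
    split_ifs <;> ring

theorem signs_smul_equiv :
    ∀ c : {c : Finset GolayPt // c ∈ supports (golayCode : Set (GolayPt → ZMod 2))},
      monomial (one_mem M24) c.2 ∈ signs := fun c => mem_signs.2 ⟨c.1, c.2, rfl⟩

theorem signs_bijective : Function.Bijective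
    (fun c : {c : Finset GolayPt // c ∈ supports (golayCode : Set (GolayPt → ZMod 2))} =>
      (⟨_, signs_smul_equiv c⟩ : signs)) := by
  constructor
  · intro a b h
    exact Subtype.ext (monomial_injective (one_mem M24) (one_mem M24) a.2 b.2 (congrArg Subtype.val h)).2
  · intro g
    obtain ⟨c, hc, e⟩ := mem_signs.1 g.2
    exact ⟨⟨c, hc⟩, Subtype.ext e.symm⟩

theorem card_signs_all : Nat.card signs = 4096 := by
  rw [← Nat.card_congr (Equiv.ofBijective _ signs_bijective), ← card_golayCode]
  refine (Nat.card_congr (Equiv.ofBijective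
    (fun w : golayCode => (⟨support₂ w.1, ⟨w.1, w.2, rfl⟩⟩ :
      {c : Finset GolayPt // c ∈ supports (golayCode : Set (GolayPt → ZMod 2))}))
    ⟨fun a b h => Subtype.ext (Golay.support₂_injective (congrArg Subtype.val h)), ?_⟩)).symm
  rintro ⟨_, w, hw, rfl⟩
  exact ⟨⟨w, hw⟩, rfl⟩

/-- A normal 2-subgroup of a group with non-abelian simple subgroup meets it trivially. -/
theorem inf_eq_bot_of_simple {X : Type*} [Group X] [Finite X] {E H : Subgroup X} (hE : IsPGroup 2 E)
    (hn : H ≤ Subgroup.normalizer (E : Set X)) (hs : IsSimpleGroup H) (hcard : ¬ IsPGroup 2 H) :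
    E ⊓ H = ⊥ := by
  haveI := hs
  haveI := Subgroup.normal_subgroupOf_of_le_normalizer hn
  rcases Subgroup.Normal.eq_bot_or_eq_top (H := E.subgroupOf H) inferInstance with h | h
  · rwa [Subgroup.subgroupOf_eq_bot, disjoint_iff] at h
  · exact absurd (hE.to_le (Subgroup.subgroupOf_eq_top.1 h)) hcard

theorem not_two_group {X : Type*} [Group X] [Finite X] {H : Subgroup X} (h : 3 ∣ Nat.card H) : ¬ IsPGroup 2 H := by
  intro hp
  haveI : Fact (Nat.Prime 2) := ⟨Nat.prime_two⟩
  obtain ⟨k, hk⟩ := hp.exists_card_eq
  rw [hk] at h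
  exact absurd (Nat.Prime.dvd_of_dvd_pow Nat.prime_three h) (by norm_num)

theorem finite_sub (H : Subgroup Co0) : Finite H :=
  haveI := finite_Co0
  inferInstance

/-- A normal 2-subgroup of the cross stabiliser consists of sign changes. -/
theorem le_signs_of_normal {N : Subgroup Co0} (hN : IsPGroup 2 N) (hle : N ≤ crossStab)
    (hn : crossStab ≤ Subgroup.normalizer (N : Set Co0)) : N ≤ signs := by
  set E := (N.subgroupOf crossStab).map permHom with hE
  have hEp : IsPGroup 2 E := (hN.comap_subtype).map _
  have hEn : M24 ≤ Subgroup.normalizer (E : Set (Equiv.Perm GolayPt)) := by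
    rw [← range_permHom]
    rintro _ ⟨g, rfl⟩
    refine Subgroup.le_normalizer_map permHom ⟨g, ?_, rfl⟩
    exact Subgroup.mem_normalizer_iff.2 fun x => Subgroup.mem_normalizer_iff.1 (hn g.2) (x : Co0)
  have h := inf_eq_bot_of_simple hEp hEn isSimpleGroup_M24 (not_two_group (by rw [card_M24]; norm_num))
  rw [inf_eq_left.2 (by rw [← range_permHom]; exact Subgroup.map_le_range _ _)] at h
  intro g hg
  refine ⟨⟨g, hle hg⟩, MonoidHom.mem_ker.2 ?_, rfl⟩
  exact Subgroup.mem_bot.1 (h ▸ (⟨⟨g, hle hg⟩, hg, rfl⟩ : permHom ⟨g, hle hg⟩ ∈ E))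

/-- The two points of `leechU`. -/
abbrev uPair : Finset GolayPt := {none, some 0}

theorem leechU_apply (p : GolayPt) : Spor.leechU.1 p = if p ∈ uPair then 4 else 0 := by
  simp [Spor.leechU, Spor.vecU, uPair]

theorem sqNorm_leechU : sqNorm (Spor.leechU.1) = 32 := by decide +kernel

theorem mem_classStab_leechU {g : Co0} :
    g ∈ classStab Spor.leechU ↔ g • Spor.leechU = Spor.leechU ∨ g • Spor.leechU = -Spor.leechU := by
  constructor
  · intro hg
    have h := (mem_classStab.1 hg).symm
    by_cases e : g • Spor.leechU = Spor.leechU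
    · exact Or.inl e
    · have hN : sqNorm (g • Spor.leechU).1 = 32 := (g.2.2 Spor.leechU).trans sqNorm_leechU
      rcases short_congr (g • Spor.leechU).2 (v := Spor.leechU.1) (by rw [sqNorm_leechU]; norm_num) (by omega) h
        (fun e' => e (Subtype.ext e'.symm)) with e' | ⟨h1, -, -⟩
      · exact Or.inr (Subtype.ext (by rw [AddSubgroup.coe_neg, e', neg_neg]))
      · rw [sqNorm_leechU] at h1; omega
  · rintro (e | e) <;> rw [mem_classStab, e]
    · exact Cong.refl _
    · exact (cong_neg Spor.leechU.2).symm

/-- The sign changes and permutations fixing the class of `leechU`. -/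
abbrev uCrossStab : Subgroup Co0 := classStab Spor.leechU ⊓ crossStab

theorem permHom_pair {g : crossStab} (hg : (g : Co0) ∈ classStab Spor.leechU) :
    ∀ p ∈ uPair, permHom g p ∈ uPair := by
  intro p hp
  obtain ⟨-, c, -, h⟩ := crossStab_monomial g
  have h1 := congrFun (h Spor.leechU) (permHom g p)
  simp only [flipOn, Function.comp_apply, perm_inv_apply, leechU_apply, if_pos hp] at h1
  by_contra hne
  have h2 : ((g : Co0) • Spor.leechU).1 (permHom g p) = 0 := by
    rcases mem_classStab_leechU.1 hg with e | e <;> rw [e]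
    · rw [leechU_apply, if_neg hne]
    · simp [leechU_apply, hne]
  rw [h2] at h1
  split_ifs at h1 <;> omega

/-- Permutations of `M24` preserving the pair. -/
def pairStab : Subgroup (Equiv.Perm GolayPt) where
  carrier := {σ | σ ∈ M24 ∧ ∀ p ∈ uPair, σ p ∈ uPair}
  one_mem' := ⟨one_mem _, fun _ hp => hp⟩
  mul_mem' := fun ha hb => ⟨mul_mem ha.1 hb.1, fun p hp => ha.2 _ (hb.2 p hp)⟩
  inv_mem' := fun {σ} ha => ⟨inv_mem ha.1, fun p hp => by
    have himg : uPair.image σ = uPair := Finset.eq_of_subset_of_card_le
      (fun q hq => by obtain ⟨r, hr, rfl⟩ := Finset.mem_image.1 hq; exact ha.2 r hr)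
      (by rw [Finset.card_image_of_injective _ σ.injective])
    obtain ⟨r, hr, e⟩ := Finset.mem_image.1 (himg.symm ▸ hp : p ∈ uPair.image σ)
    rw [← e, perm_inv_apply]
    exact hr⟩

theorem map_uCrossStab : (uCrossStab.subgroupOf crossStab).map permHom = pairStab := by
  refine le_antisymm ?_ ?_
  · rintro _ ⟨g, hg, rfl⟩
    exact ⟨(crossStab_monomial g).1, permHom_pair hg.1⟩
  · rintro τ ⟨hτ, hp⟩
    refine ⟨⟨monomial (inv_mem hτ) empty_support, monomial_mem (inv_mem hτ) empty_support⟩,
      ⟨?_, monomial_mem (inv_mem hτ) empty_support⟩, by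
      rw [permHom_monomial, inv_inv]⟩
    refine mem_classStab_leechU.2 (Or.inl (Subtype.ext ?_))
    show (monomial (inv_mem hτ) empty_support • Spor.leechU).1 = _
    rw [monomial_smul]
    funext p
    simp only [flipOn, Finset.notMem_empty, if_false, Function.comp_apply, leechU_apply]
    have hiff : τ⁻¹ p ∈ uPair ↔ p ∈ uPair := by
      refine ⟨fun h => ?_, fun h => (pairStab.inv_mem ⟨hτ, hp⟩).2 p h⟩
      have := hp _ h
      rwa [perm_apply_inv] at this
    simp only [hiff]

/-- The pointwise stabiliser of the pair. -/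
abbrev M22' : Subgroup (Equiv.Perm GolayPt) :=
  M24 ⊓ MulAction.stabilizer (Equiv.Perm GolayPt) (none : GolayPt) ⊓
    MulAction.stabilizer (Equiv.Perm GolayPt) (some 0 : GolayPt)

theorem M22'_apply {h : Equiv.Perm GolayPt} (hh : h ∈ M22') : h none = none ∧ h (some 0) = some 0 :=
  ⟨hh.1.2, hh.2⟩

theorem M22'_le : M22' ≤ pairStab := fun h hh =>
  ⟨hh.1.1, fun p hp => by
    simp only [uPair, Finset.mem_insert, Finset.mem_singleton] at hp ⊢
    rcases hp with rfl | rfl
    · exact Or.inl (M22'_apply hh).1
    · exact Or.inr (M22'_apply hh).2⟩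

theorem card_pairStab : Nat.card pairStab = 2 * 443520 := by
  have hne : (none : GolayPt) ≠ some 0 := by decide
  rw [card_eq_orbit_mul pairStab none uPair (fun g hg => hg.2 none (by simp [uPair])) ?_,
    show uPair.card = 2 from Finset.card_pair hne]
  · congr 1
    rw [← card_inf_stabilizer_two hne]
    congr 2
    ext h
    constructor
    · rintro ⟨⟨h1, h2⟩, h3⟩
      refine ⟨⟨h1, h3⟩, ?_⟩
      have h4 := h2 (some 0) (by simp [uPair])
      simp only [uPair, Finset.mem_insert, Finset.mem_singleton] at h4
      refine h4.resolve_left fun e => hne ?_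
      exact h.injective (show h none = h (some 0) by rw [e]; exact h3)
    · intro hh
      exact ⟨M22'_le hh, hh.1.2⟩
  · intro y hy
    simp only [uPair, Finset.mem_insert, Finset.mem_singleton] at hy
    rcases hy with rfl | rfl
    · exact ⟨1, one_mem _, rfl⟩
    · obtain ⟨g, hg, -, e1, e2⟩ := exists_move_two (k := 0) (by norm_num)
        ⟨Fin.elim0, fun i => i.elim0⟩ (a := none) (b := some 0) (c := some 0) (d := none)
        (fun i => i.elim0) (fun i => i.elim0) (fun i => i.elim0) (fun i => i.elim0) hne hne.symm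
      refine ⟨g, ⟨hg, fun p hp => ?_⟩, e1⟩
      simp only [uPair, Finset.mem_insert, Finset.mem_singleton] at hp ⊢
      rcases hp with rfl | rfl
      · exact Or.inr e1
      · exact Or.inl e2

theorem transposition_notMem : Equiv.swap (none : GolayPt) (some 0) ∉ M24 := by
  intro h
  obtain ⟨k, h1⟩ : ∃ k, (Golay.enc k).testBit 23 ≠ (Golay.enc k).testBit 0 := ⟨4, by decide +kernel⟩
  have hw := mem_M24_iff.1 h _ (ofBits_enc_mem k)
  have hd := eight_le_hammingNorm (add_mem hw (ofBits_enc_mem k)) fun e => h1 ?_
  · have hsub : hammingNorm ((fun p => ofBits (Golay.enc k) ((Equiv.swap (none : GolayPt) (some 0)).symm p)) +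
        ofBits (Golay.enc k)) ≤ uPair.card := by
      refine Finset.card_le_card fun p hp => ?_
      by_contra hne
      simp only [uPair, Finset.mem_insert, Finset.mem_singleton, not_or] at hne
      refine (Finset.mem_filter.1 hp).2 ?_
      rw [Pi.add_apply]
      show ofBits (Golay.enc k) ((Equiv.swap (none : GolayPt) (some 0)).symm p) + _ = _
      rw [Equiv.symm_swap, Equiv.swap_apply_of_ne_of_ne hne.1 hne.2]
      exact CharTwo.add_self_eq_zero _
    exact absurd (le_trans hd (le_trans hsub Finset.card_le_two)) (by norm_num)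
  · have e' := congrFun e none
    simp only [Pi.add_apply, Equiv.symm_swap, Equiv.swap_apply_left, Pi.zero_apply] at e'
    cases hA : (Golay.enc k).testBit 23 <;> cases hB : (Golay.enc k).testBit 0 <;>
      simp [ofBits, ptIdx, hA, hB] at e' ⊢

/-- The pair stabiliser in `M24` has no non-trivial normal 2-subgroup. -/
theorem eq_bot_of_normal_pairStab {E : Subgroup (Equiv.Perm GolayPt)} (hE : IsPGroup 2 E) (hle : E ≤ pairStab)
    (hn : pairStab ≤ Subgroup.normalizer (E : Set (Equiv.Perm GolayPt))) : E = ⊥ := by
  have hne : (none : GolayPt) ≠ some 0 := by decide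
  have hbot := inf_eq_bot_of_simple hE (M22'_le.trans hn) (isSimpleGroup_inf_two hne)
    (not_two_group (by rw [show Nat.card ↥M22' = 443520 from card_inf_stabilizer_two hne]; norm_num))
  have key : ∀ e ∈ E, ∀ h ∈ M22', e * h = h * e := by
    intro e he h hh
    have h1 : e * h * e⁻¹ * h⁻¹ ∈ E := by
      rw [mul_assoc e h, mul_assoc]
      exact mul_mem he ((Subgroup.mem_normalizer_iff.1 (hn (M22'_le hh)) _).1 (inv_mem he))
    have fixes : ∀ p ∈ uPair, (e * h * e⁻¹ * h⁻¹) p = p := by
      intro p hp
      have hhi : h⁻¹ ∈ M22' := inv_mem hh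
      have hfix : ∀ {f : Equiv.Perm GolayPt}, f ∈ M22' → ∀ q ∈ uPair, f q = q := fun hf q hq => by
        simp only [uPair, Finset.mem_insert, Finset.mem_singleton] at hq
        rcases hq with rfl | rfl
        · exact (M22'_apply hf).1
        · exact (M22'_apply hf).2
      simp only [Equiv.Perm.mul_apply]
      rw [hfix hhi p hp, hfix hh _ ((hle (inv_mem he)).2 p hp), perm_apply_inv]
    have h2 : e * h * e⁻¹ * h⁻¹ ∈ E ⊓ M22' :=
      ⟨h1, ⟨(hle h1).1, fixes none (by simp [uPair])⟩, fixes (some 0) (by simp [uPair])⟩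
    rw [hbot, Subgroup.mem_bot] at h2
    exact mul_inv_eq_iff_eq_mul.1 (mul_inv_eq_one.1 h2)
  refine (Subgroup.eq_bot_iff_forall _).2 fun e he => ?_
  obtain ⟨heM, hepair⟩ := hle he
  have hfix : ∀ p, p ∉ uPair → e p = p := by
    intro p hp
    simp only [uPair, Finset.mem_insert, Finset.mem_singleton, not_or] at hp
    by_contra hep
    have hep' : e p ≠ none ∧ e p ≠ some 0 := by
      have key' : e p ∉ uPair := fun h => by
        have := (pairStab.inv_mem (hle he)).2 _ h
        rw [perm_inv_apply] at this
        simp [uPair, hp.1, hp.2] at this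
      simpa [uPair, not_or] using key'
    let x : Fin 3 ↪ GolayPt := ⟨![none, some 0, p], by
      intro i j hij
      fin_cases i <;> fin_cases j <;> simp_all [Ne.symm hp.1, Ne.symm hp.2]⟩
    obtain ⟨r, hr⟩ : ∃ r : GolayPt, r ∉ ({none, some 0, p, e p} : Finset GolayPt) := by
      by_contra hall
      push Not at hall
      have h := Finset.card_le_card (s := (Finset.univ : Finset GolayPt)) (t := {none, some 0, p, e p})
        fun q _ => hall q
      rw [Finset.card_univ, Golay.card_golayPt] at h
      have h4 : ({none, some 0, p, e p} : Finset GolayPt).card ≤ 4 := Finset.card_le_four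
      omega
    simp only [Finset.mem_insert, Finset.mem_singleton, not_or] at hr
    obtain ⟨h, hh, hx, hmove⟩ := exists_move_fixing (k := 3) (by norm_num) x (a := e p) (b := r)
      (fun i => by fin_cases i; exacts [Ne.symm hep'.1, Ne.symm hep'.2, Ne.symm hep])
      (fun i => by fin_cases i; exacts [Ne.symm hr.1, Ne.symm hr.2.1, Ne.symm hr.2.2.1])
    have h22 : h ∈ M22' := ⟨⟨hh, hx 0⟩, hx 1⟩
    have := congrArg (fun f : Equiv.Perm GolayPt => f p) (key e he h h22)
    simp only [Equiv.Perm.mul_apply, show h p = p from hx 2, hmove] at this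
    exact hr.2.2.2 this.symm
  by_contra he1
  have h0 := hepair none (by simp [uPair])
  have h1 := hepair (some 0) (by simp [uPair])
  simp only [uPair, Finset.mem_insert, Finset.mem_singleton] at h0 h1
  rcases h0 with h0 | h0
  · apply he1
    ext q
    by_cases hq : q ∈ uPair
    · simp only [uPair, Finset.mem_insert, Finset.mem_singleton] at hq
      rcases hq with rfl | rfl
      · rw [h0]; rfl
      · rw [h1.resolve_left fun h => hne (e.injective (h0.trans h.symm))]; rfl
    · rw [hfix q hq]; rfl
  · refine transposition_notMem ?_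
    rwa [show Equiv.swap (none : GolayPt) (some 0) = e from ?_]
    ext q
    by_cases hq : q ∈ uPair
    · simp only [uPair, Finset.mem_insert, Finset.mem_singleton] at hq
      rcases hq with rfl | rfl
      · rw [Equiv.swap_apply_left, h0]
      · rw [Equiv.swap_apply_right, h1.resolve_right fun h => hne (e.injective (h0.trans h.symm))]
    · have hq' := hq
      simp only [uPair, Finset.mem_insert, Finset.mem_singleton, not_or] at hq'
      rw [Equiv.swap_apply_of_ne_of_ne hq'.1 hq'.2, hfix q hq]

theorem card_uSigns : Nat.card ↥(classStab Spor.leechU ⊓ signs) = 2048 := by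
  have hiff : ∀ {c : Finset GolayPt} (hc : c ∈ supports (golayCode : Set (GolayPt → ZMod 2))),
      monomial (one_mem M24) hc ∈ classStab Spor.leechU ↔ ((none : GolayPt) ∈ c ↔ (some 0 : GolayPt) ∈ c) := by
    intro c hc
    rw [mem_classStab_leechU]
    constructor
    · rintro (e | e) <;>
      · have a := congrArg (fun v : leechLattice => v.1 none) e
        have b := congrArg (fun v : leechLattice => v.1 (some 0)) e
        simp only [monomial_smul, flipOn, Function.comp_apply, Equiv.Perm.coe_one, id_eq, AddSubgroup.coe_neg,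
          Pi.neg_apply, leechU_apply] at a b
        simp [uPair] at a b
        by_cases h : (none : GolayPt) ∈ c <;> by_cases h' : (some 0 : GolayPt) ∈ c <;> simp_all
    · intro h
      by_cases hn : (none : GolayPt) ∈ c
      · refine Or.inr (Subtype.ext (funext fun p => ?_))
        have h0 := h.1 hn
        simp only [monomial_smul, flipOn, Function.comp_apply, Equiv.Perm.coe_one, id_eq, AddSubgroup.coe_neg,
          Pi.neg_apply, leechU_apply]
        by_cases hp : p ∈ uPair
        · simp only [uPair, Finset.mem_insert, Finset.mem_singleton] at hp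
          rcases hp with rfl | rfl <;> simp [hn, h0]
        · simp [hp]
      · refine Or.inl (Subtype.ext (funext fun p => ?_))
        have h0 : (some 0 : GolayPt) ∉ c := fun h' => hn (h.2 h')
        simp only [monomial_smul, flipOn, Function.comp_apply, Equiv.Perm.coe_one, id_eq, leechU_apply]
        by_cases hp : p ∈ uPair
        · simp only [uPair, Finset.mem_insert, Finset.mem_singleton] at hp
          rcases hp with rfl | rfl <;> simp [hn, h0]
        · simp [hp]
  haveI := finite_Co0
  haveI : Fact (Nat.Prime 2) := ⟨Nat.prime_two⟩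
  -- index two in the sign changes
  have hidx : (classStab Spor.leechU).relIndex signs = 2 := by
    obtain ⟨k, hk⟩ : ∃ k, (Golay.enc k).testBit 23 ≠ (Golay.enc k).testBit 0 := ⟨4, by decide +kernel⟩
    have hc : support₂ (ofBits (Golay.enc k)) ∈ supports (golayCode : Set (GolayPt → ZMod 2)) :=
      ⟨_, ofBits_enc_mem k, rfl⟩
    have hmix : ¬ ((none : GolayPt) ∈ support₂ (ofBits (Golay.enc k)) ↔
        (some 0 : GolayPt) ∈ support₂ (ofBits (Golay.enc k))) := by
      simp only [mem_support₂, ofBits_apply_ne_zero, ptIdx, ZMod.val_zero]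
      exact fun h => hk (Bool.eq_iff_iff.2 h)
    rw [Subgroup.relIndex, Subgroup.index_eq_two_iff']
    refine ⟨⟨_, signs_smul_equiv ⟨_, hc⟩⟩, fun b => ?_⟩
    obtain ⟨d, hd, e⟩ := mem_signs.1 b.2
    simp only [Subgroup.mem_subgroupOf, Subgroup.coe_mul, e]
    obtain ⟨d', hd', e'⟩ := mem_signs.1 (mul_mem (signs_smul_equiv ⟨_, hc⟩) (signs_smul_equiv ⟨d, hd⟩))
    rw [e', hiff hd', hiff hd]
    have hpt : ∀ p, p ∈ d' ↔ ¬ (p ∈ support₂ (ofBits (Golay.enc k)) ↔ p ∈ d) := by
      intro p
      have a := congrArg (fun g : Co0 => (g • crossL p).1 p) e'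
      simp only [mul_smul, monomial_smul, flipOn, Function.comp_apply, Equiv.Perm.coe_one, id_eq, crossL,
        Leech.cross, if_true] at a
      by_cases h1 : p ∈ support₂ (ofBits (Golay.enc k)) <;> by_cases h2 : p ∈ d <;>
        by_cases h3 : p ∈ d' <;> simp [h1, h2, h3] at a ⊢
    rw [hpt none, hpt (some 0)]
    unfold Xor
    tauto
  have h := Subgroup.card_mul_index ((classStab Spor.leechU).subgroupOf signs)
  rw [show ((classStab Spor.leechU).subgroupOf signs).index = (classStab Spor.leechU).relIndex signs from rfl,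
    hidx, card_signs_all] at h
  have e : Nat.card ↥((classStab Spor.leechU).subgroupOf signs) = Nat.card ↥(classStab Spor.leechU ⊓ signs) := by
    rw [← Subgroup.inf_subgroupOf_right]
    exact Nat.card_congr (Subgroup.subgroupOfEquivOfLe inf_le_right).toEquiv
  omega

theorem card_uCrossStab : Nat.card uCrossStab = 2048 * 887040 := by
  haveI := finite_Co0
  set Y := uCrossStab.subgroupOf crossStab with hY
  let f : Y →* Equiv.Perm GolayPt := permHom.comp Y.subtype
  have h1 := Subgroup.card_mul_index f.ker
  rw [Subgroup.index_ker] at h1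
  have h2 : Nat.card f.range = 887040 := by
    rw [show f.range = Y.map permHom by rw [MonoidHom.range_comp, Subgroup.range_subtype], hY, map_uCrossStab,
      card_pairStab]
  have h3 : Nat.card f.ker = 2048 := by
    rw [← card_uSigns]
    refine Nat.card_congr
      { toFun := fun y => ⟨((y.1 : crossStab) : Co0), ⟨y.1.2.1, ⟨y.1.1, y.2, rfl⟩⟩⟩
        invFun := fun g => ⟨⟨⟨g.1, signs_le g.2.2⟩, ⟨g.2.1, signs_le g.2.2⟩⟩, ?_⟩
        left_inv := fun y => rfl
        right_inv := fun g => rfl }
    obtain ⟨w, hw, e⟩ := g.2.2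
    show permHom ⟨g.1, signs_le g.2.2⟩ = 1
    rw [show (⟨g.1, signs_le g.2.2⟩ : crossStab) = w from Subtype.ext e.symm]
    exact hw
  rw [h2, h3] at h1
  rw [h1]
  exact (Nat.card_congr (Subgroup.subgroupOfEquivOfLe (inf_le_right : uCrossStab ≤ crossStab)).toEquiv).symm

theorem card_classStab_leechU : Nat.card (classStab Spor.leechU) * 98280 = 8315553613086720000 := by
  haveI := finite_Co0
  have horb : MulAction.orbit Co0 Spor.leechU = {v : leechLattice | sqNorm v.1 = 32} := by
    ext v
    constructor
    · rintro ⟨g, rfl⟩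
      exact (g.2.2 Spor.leechU).trans sqNorm_leechU
    · intro hv
      exact exists_smul_eq_of_conj (t := Spor.vecU) (Conj.refl Spor.leechU.2) (conj32 v.2 hv)
  have h1 := Subgroup.index_mul_card (MulAction.stabilizer Co0 Spor.leechU)
  rw [MulAction.index_stabilizer, horb, show {v : leechLattice | sqNorm v.1 = 32} = shell 32 from rfl,
    ncard_shell_eq', leechLattice_counts.1, card_Co0] at h1
  have hle : MulAction.stabilizer Co0 Spor.leechU ≤ classStab Spor.leechU := fun g hg =>
    mem_classStab_leechU.2 (Or.inl hg)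
  have hidx : (MulAction.stabilizer Co0 Spor.leechU).relIndex (classStab Spor.leechU) = 2 := by
    rw [Subgroup.relIndex, Subgroup.index_eq_two_iff']
    refine ⟨⟨negCo0, mem_classStab_leechU.2 (Or.inr (negCo0_smul _))⟩, fun b => ?_⟩
    simp only [Subgroup.mem_subgroupOf, MulAction.mem_stabilizer_iff, Subgroup.coe_mul, mul_smul, negCo0_smul]
    have hne : -Spor.leechU ≠ Spor.leechU := fun e => by
      have := congrArg (fun v : leechLattice => v.1 none) e
      simp [leechU_apply, uPair] at this
    rcases mem_classStab_leechU.1 b.2 with e | e <;> rw [e]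
    · exact Or.inr ⟨rfl, hne⟩
    · exact Or.inl ⟨neg_neg _, hne⟩
  have h := Subgroup.card_mul_index ((MulAction.stabilizer Co0 Spor.leechU).subgroupOf (classStab Spor.leechU))
  rw [show ((MulAction.stabilizer Co0 Spor.leechU).subgroupOf (classStab Spor.leechU)).index = 2 from hidx,
    Nat.card_congr (Subgroup.subgroupOfEquivOfLe hle).toEquiv] at h
  rw [← h]
  linarith [h1]

/-- A normal 2-subgroup of the stabiliser of the class of `leechU` consists of sign changes. -/
theorem le_uSigns_of_normal {N : Subgroup Co0} (hN : IsPGroup 2 N) (hle : N ≤ classStab Spor.leechU)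
    (hn : classStab Spor.leechU ≤ Subgroup.normalizer (N : Set Co0)) : N ≤ classStab Spor.leechU ⊓ signs := by
  haveI := finite_Co0
  haveI : Fact (Nat.Prime 2) := ⟨Nat.prime_two⟩
  -- `N` lies in every subgroup of odd index
  have hNY : N ≤ uCrossStab := by
    set X := classStab Spor.leechU with hX
    haveI : (N.subgroupOf X).Normal := Subgroup.normal_subgroupOf_of_le_normalizer hn
    obtain ⟨P⟩ := Sylow.nonempty (G := ↥(uCrossStab.subgroupOf X)) (p := 2)
    have hYcard : Nat.card ↥(uCrossStab.subgroupOf X) = 2048 * 887040 := by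
      rw [← card_uCrossStab]
      exact Nat.card_congr (Subgroup.subgroupOfEquivOfLe inf_le_left).toEquiv
    have hodd : ¬ 2 ∣ (uCrossStab.subgroupOf X).index := by
      have h1 := Subgroup.card_mul_index (uCrossStab.subgroupOf X)
      have h2 := card_classStab_leechU
      rw [hYcard] at h1
      intro hdvd
      have h3 : (uCrossStab.subgroupOf X).index = 46575 := by
        refine Nat.eq_of_mul_eq_mul_left (show 0 < 2048 * 887040 * 98280 by norm_num) ?_
        calc 2048 * 887040 * 98280 * (uCrossStab.subgroupOf X).index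
            = 2048 * 887040 * (uCrossStab.subgroupOf X).index * 98280 := by ring
          _ = Nat.card X * 98280 := by rw [h1]
          _ = _ := by rw [h2]
      rw [h3] at hdvd
      norm_num at hdvd
    set P' := (P : Subgroup ↥(uCrossStab.subgroupOf X)).map (uCrossStab.subgroupOf X).subtype with hP'
    have hidx : ¬ 2 ∣ P'.index := by
      rw [hP', Subgroup.index_map_subtype]
      exact Nat.prime_two.not_dvd_mul P.not_dvd_index hodd
    let PX : Sylow 2 ↥X := (P.isPGroup'.map _).toSylow hidx
    have h := IsPGroup.le_sylow_of_normal (N := N.subgroupOf X) hN.comap_subtype PX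
    intro g hg
    have := Subgroup.map_subtype_le _ (h (show (⟨g, hle hg⟩ : ↥X) ∈ N.subgroupOf X from hg))
    exact this
  set E := (N.subgroupOf crossStab).map permHom with hE
  have hEle : E ≤ pairStab := by
    rw [← map_uCrossStab]
    exact Subgroup.map_mono fun g hg => hNY hg
  have hEn : pairStab ≤ Subgroup.normalizer (E : Set (Equiv.Perm GolayPt)) := by
    rw [← map_uCrossStab]
    rintro _ ⟨g, hg, rfl⟩
    refine Subgroup.le_normalizer_map permHom ⟨g, ?_, rfl⟩
    exact Subgroup.mem_normalizer_iff.2 fun x => Subgroup.mem_normalizer_iff.1 (hn hg.1) (x : Co0)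
  have h := eq_bot_of_normal_pairStab ((hN.comap_subtype).map _) hEle hEn
  intro g hg
  refine ⟨hle hg, ⟨g, (hNY hg).2⟩, MonoidHom.mem_ker.2 ?_, rfl⟩
  exact Subgroup.mem_bot.1 (h ▸ (⟨⟨g, (hNY hg).2⟩, hg, rfl⟩ : permHom ⟨g, (hNY hg).2⟩ ∈ E))

end Cfsg.Agent.Monster
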