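import Cfsg.Agent.Monster.Stabiliser
import Cfsg.Agent.Monster.LeechSigns
import Cfsg.Agent.Leech.Orthogonal
import Cfsg.Agent.S5392

/-!
The stabiliser of a short vector: no normal 2-subgroups, and faithfulness on the section orthogonal to it.
Vectors fixed modulo a cross by all sign changes.
-/

set_option autoImplicit false

namespace Cfsg.Agent.Monster

open Cfsg Cfsg.Agent.Leech Cfsg.Agent.Golay

theorem eight_dvd_dotInt (v w : leechLattice) : (8 : ℤ) ∣ dotInt v.1 w.1 := by
  have h := sqNorm_add v.1 w.1
  have a := sqNorm_mod v.2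
  have b := sqNorm_mod w.2
  have c := sqNorm_mod (add_mem v.2 w.2)
  omega

theorem sqNorm_cong {v w : leechLattice} (h : Cong v.1 w.1) : (32 : ℤ) ∣ sqNorm v.1 - sqNorm w.1 := by
  obtain ⟨t, ht, e⟩ := h
  have e' : v.1 = w.1 + (t + t) := by rw [← two_nsmul, ← e]; abel
  rw [e', sqNorm_add, sqNorm_add]
  have h1 : dotInt w.1 (t + t) = 2 * dotInt w.1 t := by
    simp only [dotInt, Pi.add_apply, Finset.mul_sum]
    exact Finset.sum_congr rfl fun p _ => by ring
  have h2 : dotInt t t = sqNorm t := Finset.sum_congr rfl fun p _ => by ring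
  have h3 := sqNorm_mod ht
  have h4 := eight_dvd_dotInt w ⟨t, ht⟩
  simp only at h4
  omega

/-- A bit pattern that lies in the code. -/
def inCodeB (n : ℕ) : Bool := Nat.beq (Golay.enc (n % 4096)) n

theorem inCodeB_of_mem {n : ℕ} (hn : n < 2 ^ 24) (h : ofBits n ∈ golayCode) : inCodeB n = true := by
  obtain ⟨j, hj, e⟩ := (mem_golayCode_iff _).mp h
  obtain rfl := ofBits_inj hn (enc_lt hj) e
  rw [inCodeB, (enc_low hj).1]
  exact Nat.beq_refl _

theorem meet_check : check4096 (fun k =>
    !((List.range 12).all fun i => inCodeB (Golay.enc k &&& Golay.enc (2 ^ i))) ||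
      Nat.beq (Golay.enc k) 0 || Nat.beq (Golay.enc k) 16777215) = true := by
  decide +kernel

theorem ofBits_land (a b : ℕ) (p : GolayPt) : ofBits (a &&& b) p = ofBits a p * ofBits b p := by
  simp only [ofBits, Nat.testBit_and]
  cases a.testBit (ptIdx p) <;> cases b.testBit (ptIdx p) <;> decide

theorem word_even_mem {x : GolayPt → ℤ} (hx : x ∈ leechLattice) (he : ∀ p, x p % 2 = 0) :
    (fun p => ((x p / 2 : ℤ) : ZMod 2)) ∈ golayCode := by
  obtain ⟨m, hm, hp, -, hw⟩ := exists_parity01 hx
  have hm0 : m = 0 := by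
    have := hp none; have := he none
    simp only [Int.ModEq] at *
    rcases hm with rfl | rfl <;> omega
  subst hm0
  rw [show (fun p => ((x p / 2 : ℤ) : ZMod 2)) = word x 0 by funext p; simp [word]]
  exact hw

/-- Classes fixed modulo the cross by every sign change come from vectors with all entries divisible by four. -/
theorem exists_four_rep {w : leechLattice}
    (h : ∀ c, ∀ hc : c ∈ supports (golayCode : Set (GolayPt → ZMod 2)),
      Cong ((monomial (one_mem M24) hc • w : leechLattice) : GolayPt → ℤ) w.1 ∨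
        Cong ((monomial (one_mem M24) hc • w : leechLattice) : GolayPt → ℤ) (w.1 + Leech.cross none)) :
    ∃ a : GolayPt → ℤ, 2 ∣ ∑ p, a p ∧ Cong w.1 ((4 : ℤ) • a) := by
  have key : ∀ k, ∃ t ∈ leechLattice, ∃ δ : ℤ, (δ = 0 ∨ δ = 4) ∧ ∀ p,
      t p = -(if (Golay.enc k).testBit (ptIdx p) then w.1 p else 0) - (if p = none then δ else 0) := by
    intro k
    have hc : support₂ (ofBits (Golay.enc k)) ∈ supports (golayCode : Set (GolayPt → ZMod 2)) :=
      ⟨_, ofBits_enc_mem k, rfl⟩
    have hsm : ∀ p, ((monomial (one_mem M24) hc • w : leechLattice) : GolayPt → ℤ) p =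
        if (Golay.enc k).testBit (ptIdx p) then -w.1 p else w.1 p := by
      intro p
      rw [monomial_smul]
      simp [flipOn, mem_support₂, ofBits_apply_ne_zero]
    rcases h _ hc with ⟨t, ht, e⟩ | ⟨t, ht, e⟩ <;> refine ⟨t, ht, ?_⟩
    · refine ⟨0, Or.inl rfl, fun p => ?_⟩
      have := congrFun e p
      simp only [Pi.sub_apply, hsm, Pi.smul_apply, nsmul_eq_mul, Nat.cast_ofNat] at this
      split_ifs at this ⊢ <;> omega
    · refine ⟨4, Or.inr rfl, fun p => ?_⟩
      have := congrFun e p
      simp only [Pi.sub_apply, Pi.add_apply, hsm, Pi.smul_apply, nsmul_eq_mul, Nat.cast_ofNat, Leech.cross] at this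
      split_ifs at this ⊢ <;> omega
  have hev : ∀ p, w.1 p % 2 = 0 := by
    rcases parity_cases w.2 with ho | he
    · exfalso
      obtain ⟨k, p, hp, q, hq⟩ : ∃ k p, (Golay.enc k).testBit (ptIdx p) = true ∧
          ∃ q, (Golay.enc k).testBit (ptIdx q) = false :=
        ⟨1, some 0, by decide +kernel, some 1, by decide +kernel⟩
      obtain ⟨t, ht, δ, hδ, e⟩ := key k
      have e1 := e p; have e2 := e q
      rw [if_pos hp] at e1
      rw [if_neg (by simp [hq])] at e2
      have h1 := ho p
      rcases parity_cases ht with hto | hte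
      · have := hto q
        rcases hδ with rfl | rfl <;> split_ifs at e2 <;> omega
      · have := hte p
        rcases hδ with rfl | rfl <;> split_ifs at e1 <;> omega
    · exact he
  obtain ⟨kd, hkd, hd⟩ := (mem_golayCode_iff _).mp (word_even_mem w.2 hev)
  have hall : ((List.range 12).all fun i => inCodeB (Golay.enc kd &&& Golay.enc (2 ^ i))) = true := by
    rw [List.all_eq_true]
    intro i _
    refine inCodeB_of_mem (lt_of_le_of_lt Nat.and_le_left (enc_lt hkd)) ?_
    obtain ⟨t, ht, δ, hδ, e⟩ := key (2 ^ i)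
    have hte : ∀ p, t p % 2 = 0 := by
      intro p
      have := e p; have := hev p
      rcases hδ with rfl | rfl <;> split_ifs at * <;> omega
    have hw := word_even_mem ht hte
    convert hw using 1
    funext p
    rw [ofBits_land, ← congrFun hd p]
    have hp := e p
    by_cases hb : (Golay.enc (2 ^ i)).testBit (ptIdx p)
    · rw [ofBits, if_pos hb, mul_one, ZMod.intCast_eq_intCast_iff_dvd_sub]
      rw [if_pos hb] at hp
      have := hev p
      rcases hδ with rfl | rfl <;> split_ifs at hp <;> omega
    · rw [ofBits, if_neg hb, mul_zero]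
      rw [if_neg hb] at hp
      symm
      rw [ZMod.intCast_zmod_eq_zero_iff_dvd]
      rcases hδ with rfl | rfl <;> split_ifs at hp <;> omega
  have hk := of_check4096 meet_check hkd
  simp only [hall, Bool.not_true, Bool.false_or, Bool.or_eq_true] at hk
  have mk : ∀ y : leechLattice, (∀ p, y.1 p % 4 = 0) → Cong w.1 y.1 →
      ∃ a : GolayPt → ℤ, 2 ∣ ∑ p, a p ∧ Cong w.1 ((4 : ℤ) • a) := by
    intro y hy hyc
    have ey : y.1 = (4 : ℤ) • fun p => y.1 p / 4 := by
      funext p; have := hy p; simp only [Pi.smul_apply, smul_eq_mul]; omega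
    refine ⟨fun p => y.1 p / 4, ?_, ey ▸ hyc⟩
    obtain ⟨m, hm, hp, hs, -⟩ := exists_parity01 y.2
    have hm0 : m = 0 := by
      have := hp none; have := hy none
      simp only [Int.ModEq] at *
      rcases hm with rfl | rfl <;> omega
    subst hm0
    rw [ey] at hs
    simp only [Int.ModEq, Pi.smul_apply, smul_eq_mul, ← Finset.mul_sum] at hs
    show (2 : ℤ) ∣ ∑ p, y.1 p / 4
    omega
  rcases hk with hk | hk
  · refine mk w (fun p => ?_) (Cong.refl _)
    rw [Nat.eq_of_beq_eq_true hk, ofBits_zero] at hd
    have h0 := congrFun hd p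
    rw [Pi.zero_apply, ZMod.intCast_zmod_eq_zero_iff_dvd] at h0
    have := hev p
    omega
  · refine mk (w + (Spor.leechV + Spor.leechV)) (fun p => ?_) (Cong.symm ⟨Spor.leechV.1, Spor.leechV.2, by
      rw [AddSubgroup.coe_add, AddSubgroup.coe_add, two_nsmul, add_sub_cancel_left]⟩)
    rw [Nat.eq_of_beq_eq_true hk] at hd
    have h0 := congrFun hd p
    rw [(show ∀ r : GolayPt, ofBits 16777215 r = ((1 : ℤ) : ZMod 2) by decide +kernel) p,
      ZMod.intCast_eq_intCast_iff_dvd_sub] at h0
    have := hev p
    simp only [AddSubgroup.coe_add, Pi.add_apply, Spor.leechV, Spor.vecV]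
    split_ifs <;> omega

/-- The sextet involution. -/
noncomputable abbrev xiCo0 : Co0 := toCo0 isAut_xi

theorem xi_data : (∀ p : GolayPt, xi Spor.vecU p = if p = some 1 ∨ p = some 2 then 4 else 0) ∧
    (∀ p : GolayPt, xi (fun p => if p = some 3 then (8 : ℤ) else 0) p ≠ 0 ↔ p = some 3 ∨ p = some 5 ∨ p = some 14 ∨ p = some 17) := by
  decide +kernel

/-- A normal 2-subgroup of the stabiliser of the class of a short vector is central. -/
theorem le_center_of_normal_uStab {N : Subgroup Co0} (hN : IsPGroup 2 N) (hle : N ≤ classStab Spor.leechU)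
    (hn : classStab Spor.leechU ≤ Subgroup.normalizer (N : Set Co0)) : N ≤ Subgroup.center Co0 := by
  have hS := le_uSigns_of_normal hN hle hn
  intro g hg
  obtain ⟨c, hc, rfl⟩ := mem_signs.1 (hS hg).2
  -- any two points outside the pair
  have key : ∀ p q : GolayPt, p ∉ uPair → q ∉ uPair → p ≠ q → (p ∈ c ↔ q ∈ c) := by
    intro p q hp hq hpq
    simp only [uPair, Finset.mem_insert, Finset.mem_singleton, not_or] at hp hq
    let x : Fin 4 ↪ GolayPt := ⟨![none, some 0, p, q], by
      intro i j hij
      fin_cases i <;> fin_cases j <;> simp_all [Ne.symm hp.1, Ne.symm hp.2, Ne.symm hq.1, Ne.symm hq.2, Ne.symm hpq]⟩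
    let y : Fin 4 ↪ GolayPt := ⟨![some 1, some 2, some 3, some 5], by decide⟩
    obtain ⟨g₁, hg₁, e₁⟩ := exists_move_fin (k := 4) (by norm_num) x
    obtain ⟨g₂, hg₂, e₂⟩ := exists_move_fin (k := 4) (by norm_num) y
    set σ : Equiv.Perm GolayPt := g₂⁻¹ * g₁ with hσdef
    have hσ : σ ∈ M24 := mul_mem (inv_mem hg₂) hg₁
    have hσv : ∀ i, σ (x i) = y i := fun i => by
      rw [hσdef, Equiv.Perm.mul_apply, e₁, ← e₂]
      exact perm_inv_apply g₂ _
    have hn0 : σ none = some 1 := hσv 0
    have hs0 : σ (some 0) = some 2 := hσv 1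
    have hp3 : σ p = some 3 := hσv 2
    have hq5 : σ q = some 5 := hσv 3
    set h : Co0 := monomial hσ empty_support * xiCo0
    have hval : ∀ v : leechLattice, (h • v).1 = fun r => xi v.1 (σ r) := by
      intro v
      rw [mul_smul, monomial_smul, toCo0_smul]
      funext r
      simp [flipOn]
    have hU : h ∈ classStab Spor.leechU := by
      refine mem_classStab_leechU.2 (Or.inl (Subtype.ext ?_))
      rw [hval]
      funext r
      show xi Spor.vecU (σ r) = _
      rw [xi_data.1, leechU_apply]
      have hiff : (σ r = some 1 ∨ σ r = some 2) ↔ r ∈ uPair := by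
        rw [← hn0, ← hs0, σ.injective.eq_iff, σ.injective.eq_iff]
        simp [uPair]
      simp only [hiff]
    have hg' : h⁻¹ * monomial (one_mem M24) hc * h ∈ signs := by
      refine (hS ?_).2
      have := (Subgroup.mem_normalizer_iff.1 (hn ((classStab Spor.leechU).inv_mem hU)) _).1 hg
      rwa [inv_inv] at this
    obtain ⟨d, hd, e⟩ := mem_signs.1 hg'
    have e3 : monomial (one_mem M24) hc • h • crossL (some 3) =
        h • monomial (one_mem M24) hd • crossL (some 3) := by
      rw [← mul_smul, ← mul_smul, ← e]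
      group
    have hy : ∀ r, (h • crossL (some 3)).1 r ≠ 0 ↔ σ r = some 3 ∨ σ r = some 5 ∨ σ r = some 14 ∨ σ r = some 17 :=
      fun r => by rw [hval]; exact xi_data.2 (σ r)
    have hp' := (hy p).2 (Or.inl hp3)
    have hq' := (hy q).2 (Or.inr (Or.inl hq5))
    have h4 : monomial (one_mem M24) hd • crossL (some 3) = crossL (some 3) ∨
        monomial (one_mem M24) hd • crossL (some 3) = -crossL (some 3) := by
      by_cases h3 : (some 3 : GolayPt) ∈ d
      · refine Or.inr (Subtype.ext ?_)
        rw [monomial_smul, AddSubgroup.coe_neg]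
        funext r
        by_cases hr : r = some 3 <;> simp [flipOn, crossL, Leech.cross, hr, h3]
      · refine Or.inl (Subtype.ext ?_)
        rw [monomial_smul]
        funext r
        by_cases hr : r = some 3 <;> simp [flipOn, crossL, Leech.cross, hr, h3]
    have a := congrArg (fun v : leechLattice => v.1 p) e3
    have b := congrArg (fun v : leechLattice => v.1 q) e3
    simp only [monomial_smul, flipOn, Function.comp_apply, Equiv.Perm.coe_one, id_eq] at a b
    constructor <;> intro hcm <;> by_contra hcn <;>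
      (simp only [if_pos hcm, if_neg hcn] at a b
       rcases h4 with e4 | e4 <;> rw [e4] at a b <;>
         simp only [co0_neg, AddSubgroup.coe_neg, Pi.neg_apply] at a b <;> omega)
  obtain ⟨w, hw, hws⟩ := id hc
  obtain ⟨k, hk, rfl⟩ := (mem_golayCode_iff w).mp hw
  have h3 : (some 3 : GolayPt) ∉ uPair := by decide
  by_cases h : (some 3 : GolayPt) ∈ c
  · have hall : ∀ p, p ∈ c := by
      intro p
      by_contra hp
      have hsub : hammingNorm (ofBits (Golay.enc k) + 1) ≤ uPair.card := by
        refine Finset.card_le_card fun r hr => ?_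
        by_contra hne
        have hrc : r ∈ c := by
          by_cases e : (some 3 : GolayPt) = r
          · exact e ▸ h
          · exact (key _ _ h3 hne e).1 h
        rw [← hws] at hrc
        refine (Finset.mem_filter.1 hr).2 ?_
        rw [Pi.add_apply, Pi.one_apply, (Leech.zmod2_ne_zero_iff _).1 ((mem_support₂ _ _).1 hrc)]
        exact CharTwo.add_self_eq_zero _
      have hd := eight_le_hammingNorm (add_mem hw one_mem_golayCode) fun e => hp (by
        rw [← hws, mem_support₂]
        intro e0
        have := congrFun e p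
        rw [Pi.add_apply, Pi.one_apply, e0] at this
        simp at this)
      exact absurd (le_trans hd (le_trans hsub Finset.card_le_two)) (by norm_num)
    refine (center_eq _).2 (Or.inr (co0_ext fun x => ?_))
    rw [monomial_smul, negCo0_smul, AddSubgroup.coe_neg]
    funext p
    simp [flipOn, hall p]
  · have hall : ∀ p, p ∉ c := by
      intro p hp
      have hsub : hammingNorm (ofBits (Golay.enc k)) ≤ uPair.card := by
        refine Finset.card_le_card fun r hr => ?_
        by_contra hne
        have hr' : r ∈ c := hws ▸ (mem_support₂ _ _).2 (Finset.mem_filter.1 hr).2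
        by_cases e : (some 3 : GolayPt) = r
        · exact h (e ▸ hr')
        · exact h ((key _ _ h3 hne e).2 hr')
      have hd := eight_le_hammingNorm hw fun e => by
        rw [← hws, mem_support₂, e] at hp
        exact hp rfl
      exact absurd (le_trans hd (le_trans hsub Finset.card_le_two)) (by norm_num)
    refine (center_eq _).2 (Or.inl (co0_ext fun x => ?_))
    rw [monomial_smul, one_smul]
    funext p
    simp [flipOn, hall p]

/-- Congruence modulo twice the lattice and `leechU`. -/
def UCong (a b : leechLattice) : Prop := Cong a.1 b.1 ∨ Cong a.1 (b + Spor.leechU).1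

theorem cong_add_right {a b : GolayPt → ℤ} (h : Cong a b) (c : GolayPt → ℤ) : Cong (a + c) (b + c) := by
  obtain ⟨t, ht, e⟩ := h
  exact ⟨t, ht, by rw [add_sub_add_right_eq_sub, e]⟩

theorem cong_double (a : GolayPt → ℤ) {c : GolayPt → ℤ} (hc : c ∈ leechLattice) : Cong (a + c + c) a :=
  ⟨c, hc, by rw [two_nsmul]; abel⟩

theorem UCong.symm {a b : leechLattice} (h : UCong a b) : UCong b a := by
  rcases h with h | h
  · exact Or.inl h.symm
  · refine Or.inr ?_
    rw [AddSubgroup.coe_add]
    have := cong_add_right h Spor.leechU.1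
    rw [AddSubgroup.coe_add] at this
    exact ((this.trans (cong_double b.1 Spor.leechU.2))).symm

theorem UCong.trans {a b c : leechLattice} (h : UCong a b) (h' : UCong b c) : UCong a c := by
  rcases h with h | h <;> rcases h' with h' | h'
  · exact Or.inl (h.trans h')
  · exact Or.inr (h.trans h')
  · refine Or.inr (h.trans ?_)
    rw [AddSubgroup.coe_add, AddSubgroup.coe_add]
    exact cong_add_right h' _
  · refine Or.inl (h.trans ?_)
    rw [AddSubgroup.coe_add]
    have := cong_add_right h' Spor.leechU.1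
    rw [AddSubgroup.coe_add] at this
    exact this.trans (cong_double c.1 Spor.leechU.2)

theorem UCong.smul {g : Co0} (hg : g ∈ classStab Spor.leechU) {a b : leechLattice} (h : UCong a b) :
    UCong (g • a) (g • b) := by
  rcases h with h | h
  · exact Or.inl (cong_smul g h)
  · refine Or.inr ((cong_smul g h).trans ?_)
    rw [co0_add, AddSubgroup.coe_add, AddSubgroup.coe_add, add_comm, add_comm (g • b).1]
    exact cong_add_right (mem_classStab.1 hg) _

theorem perp_smul {g : Co0} (hg : g ∈ classStab Spor.leechU) {a : leechLattice}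
    (ha : (16 : ℤ) ∣ dotInt a.1 Spor.leechU.1) : (16 : ℤ) ∣ dotInt (g • a).1 Spor.leechU.1 := by
  have h := co0_dotInt g a Spor.leechU
  rcases mem_classStab_leechU.1 hg with e | e
  · rw [e] at h
    rw [h]
    exact ha
  · rw [e, AddSubgroup.coe_neg] at h
    have h' : dotInt (g • a).1 (-Spor.leechU.1) = -dotInt (g • a).1 Spor.leechU.1 := by
      simp [dotInt, Finset.sum_neg_distrib]
    rw [h'] at h
    omega

/-- The kernel on the section orthogonal to `leechU`. -/
noncomputable def perpKernel : Subgroup Co0 where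
  carrier := {g | g ∈ classStab Spor.leechU ∧
    ∀ a : leechLattice, (16 : ℤ) ∣ dotInt a.1 Spor.leechU.1 → UCong (g • a) a}
  one_mem' := ⟨one_mem _, fun a _ => Or.inl (by rw [one_smul]; exact Cong.refl _)⟩
  mul_mem' := fun {g h} hg hh => ⟨Subgroup.mul_mem _ hg.1 hh.1, fun a ha => by
    rw [mul_smul]
    exact ((hh.2 a ha).smul hg.1).trans (hg.2 a ha)⟩
  inv_mem' := fun {g} hg => ⟨Subgroup.inv_mem _ hg.1, fun a ha => by
    have := (hg.2 a ha).smul (Subgroup.inv_mem _ hg.1)
    rw [inv_smul_smul] at this
    exact this.symm⟩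

theorem perpKernel_normal : classStab Spor.leechU ≤ Subgroup.normalizer (perpKernel : Set Co0) := by
  have key : ∀ {h g : Co0}, h ∈ classStab Spor.leechU → g ∈ perpKernel → h * g * h⁻¹ ∈ perpKernel := by
    intro h g hh hg
    refine ⟨Subgroup.mul_mem _ (Subgroup.mul_mem _ hh hg.1) (Subgroup.inv_mem _ hh), fun a ha => ?_⟩
    have := (hg.2 (h⁻¹ • a) (perp_smul (Subgroup.inv_mem _ hh) ha)).smul hh
    rwa [smul_inv_smul, ← mul_smul, ← mul_smul] at this
  intro h hh
  refine Subgroup.mem_normalizer_iff.2 fun g => ⟨key hh, fun H => ?_⟩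
  have := key (Subgroup.inv_mem _ hh) H
  simpa [mul_assoc] using this

theorem perpKernel_pGroup : IsPGroup 2 perpKernel := by
  intro g
  refine ⟨3, Subtype.ext ?_⟩
  obtain ⟨hU, hp⟩ := g.2
  set f : Co0 := g.1
  let D : leechLattice → leechLattice := fun a => f • a - a
  have h1 : ∀ a, (16 : ℤ) ∣ dotInt (D a).1 Spor.leechU.1 := by
    intro a
    have h := co0_dotInt f a Spor.leechU
    have h8 := eight_dvd_dotInt a Spor.leechU
    have hsub : dotInt (D a).1 Spor.leechU.1 = dotInt (f • a).1 Spor.leechU.1 - dotInt a.1 Spor.leechU.1 := by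
      simp [D, dotInt, sub_mul, Finset.sum_sub_distrib]
    rcases mem_classStab_leechU.1 hU with e | e
    · rw [e] at h
      omega
    · rw [e, AddSubgroup.coe_neg] at h
      have h' : dotInt (f • a).1 (-Spor.leechU.1) = -dotInt (f • a).1 Spor.leechU.1 := by
        simp [dotInt, Finset.sum_neg_distrib]
      rw [h'] at h
      omega
  have h3 : ∀ a, Cong (D (D (D a))).1 0 := by
    intro a
    have hD : ∀ {b c : leechLattice}, Cong b.1 c.1 → Cong (D b).1 (D c).1 := by
      intro b c h
      obtain ⟨t, ht, e⟩ := cong_smul f h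
      obtain ⟨u, hu, e'⟩ := h
      refine ⟨t - u, sub_mem ht hu, ?_⟩
      simp only [D, AddSubgroup.coe_sub, smul_sub]
      rw [← e, ← e']
      abel
    have hD0 : Cong (D (0 : leechLattice)).1 0 := by
      simp only [D, sub_zero]
      have : f • (0 : leechLattice) = 0 := by
        have := co0_add f 0 0
        simp only [add_zero] at this
        exact left_eq_add.mp this
      rw [this]; exact Cong.refl _
    rcases hp (D a) (h1 a) with h | h
    · have h' : Cong (D (D a)).1 ((0 : leechLattice) : GolayPt → ℤ) := by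
        obtain ⟨t, ht, e⟩ := h
        exact ⟨t, ht, by simp only [D, AddSubgroup.coe_sub, AddSubgroup.coe_zero, sub_zero] at e ⊢; exact e⟩
      exact (hD h').trans hD0
    · have h' : Cong (D (D a)).1 Spor.leechU.1 := by
        obtain ⟨t, ht, e⟩ := h
        refine ⟨t, ht, ?_⟩
        rw [← e]
        simp only [D, AddSubgroup.coe_sub, AddSubgroup.coe_add]
        abel
      refine (hD h').trans ?_
      obtain ⟨t, ht, e⟩ := mem_classStab.1 hU
      exact ⟨t, ht, by simp only [D, AddSubgroup.coe_sub, sub_zero]; exact e⟩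
  have h4 : ∀ a : leechLattice, Cong ((f ^ 4 : Co0) • a).1 a.1 := by
    intro a
    obtain ⟨t, ht, e⟩ := h3 a
    obtain ⟨t', ht', e'⟩ := h3 (f • a)
    set a1 := f • a with ha1
    set a2 := f • a1 with ha2
    set a3 := f • a2 with ha3
    have hw : ((2 : ℕ) • a3 - (3 : ℕ) • a2 + (2 : ℕ) • a1 - a : leechLattice).1 ∈ leechLattice := Subtype.prop _
    refine ⟨t' - t + ((2 : ℕ) • a3 - (3 : ℕ) • a2 + (2 : ℕ) • a1 - a : leechLattice).1,
      add_mem (sub_mem ht' ht) hw, ?_⟩
    have ef : f ^ 4 • a = f • a3 := by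
      simp only [ha3, ha2, ha1, pow_succ, pow_zero, one_mul, mul_smul]
    rw [ef]
    funext p
    have q := congrFun e p
    have q' := congrFun e' p
    simp only [D, co0_sub, ← ha1, ← ha2, ← ha3, AddSubgroup.coe_sub, AddSubgroup.coe_add, AddSubgroup.coe_nsmul,
      Pi.sub_apply, Pi.add_apply, Pi.smul_apply, Pi.zero_apply, Pi.mul_apply, Pi.ofNat_apply, nsmul_eq_mul,
      Nat.cast_ofNat] at q q' ⊢
    omega
  have h5 : f ^ 4 ∈ Subgroup.center Co0 := S5392.faithful h4
  show f ^ 2 ^ 3 = 1
  rw [show 2 ^ 3 = 4 * 2 from rfl, pow_mul]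
  rcases (center_eq _).1 h5 with e | e <;> rw [e]
  · exact one_pow 2
  · exact co0_ext fun x => by rw [pow_two, mul_smul, negCo0_smul, negCo0_smul, neg_neg, one_smul]

/-- The second Conway group acts faithfully on the section orthogonal to `leechU`. -/
theorem perpKernel_le_center : perpKernel ≤ Subgroup.center Co0 :=
  le_center_of_normal_uStab perpKernel_pGroup (fun _ hg => hg.1) perpKernel_normal

theorem eq_one_of_center_fix {g : Co0} (hg : g ∈ Subgroup.center Co0) (hu : g • Spor.leechU = Spor.leechU) : g = 1 := by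
  rcases (center_eq _).1 hg with e | e
  · exact e
  · exfalso
    rw [e, negCo0_smul] at hu
    have := congrArg (fun v : leechLattice => v.1 none) hu
    simp [leechU_apply, uPair] at this

end Cfsg.Agent.Monster
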