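import Cfsg.Agent.Monster.Singular
import Cfsg.Agent.Monster.Short

/-!
An involution of `Q` not conjugate to `z`: the data that lead to the Baby Monster type.
-/

set_option autoImplicit false

namespace Cfsg.Agent.Monster.MSetting

open Cfsg Cfsg.Agent.Leech

variable {G : Type*} [Group G] [Finite G] {z : G} {Q : Subgroup (Subgroup.centralizer ({z} : Set G))} [Q.Normal]
  {e : (Subgroup.centralizer ({z} : Set G)) ⧸ Q ≃* Spor.Co1} {ψ : leechLattice → Q ⧸ Subgroup.center Q}
  (S : MSetting z Q e ψ)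
include S

/-- The identification moved by a lattice automorphism. -/
theorem retarget (h : Co0) :
    MSetting z Q (e.trans (MulAut.conj (QuotientGroup.mk (h⁻¹) : Spor.Co1))) (fun v => ψ (h • v)) := by
  refine ⟨S.setting, fun v w => by simp only [co0_add, S.iso.1], fun q => ?_, fun v => ?_, fun c g hgc v q hq => ?_⟩
  · obtain ⟨v, hv⟩ := S.iso.2.1 q
    exact ⟨h⁻¹ • v, by simp only [smul_inv_smul, hv]⟩
  · rw [S.iso.2.2.1]
    constructor
    · rintro ⟨w, hw⟩
      exact ⟨h⁻¹ • w, by rw [← co0_add, ← hw, inv_smul_smul]⟩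
    · rintro ⟨w, rfl⟩
      exact ⟨h • w, co0_add _ _ _⟩
  · have hm : (QuotientGroup.mk (h * g * h⁻¹) : Spor.Co1) = e (QuotientGroup.mk c) := by
      rw [QuotientGroup.mk_mul, QuotientGroup.mk_mul, hgc, MulEquiv.trans_apply, MulAut.conj_apply,
        QuotientGroup.mk_inv]
      group
    have := S.iso.2.2.2 c (h * g * h⁻¹) hm (h • v) q hq
    rw [← mul_smul, inv_mul_cancel_right, mul_smul] at this
    exact this

theorem rep_congr {v w : leechLattice} {x : G} (hx : Rep ψ v x) (h : Cong v.1 w.1) : Rep ψ w x := by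
  obtain ⟨q, rfl, hq⟩ := hx
  exact ⟨q, rfl, (S.psi_congr h).symm.trans hq⟩

theorem rep_z : Rep ψ 0 z := by
  obtain ⟨q, hq, e'⟩ := S.ci.mem
  refine ⟨⟨q, hq⟩, e', ?_⟩
  rw [(S.iso.2.2.1 0).2 ⟨0, (add_zero 0).symm⟩]
  exact ((QuotientGroup.eq_one_iff _).2 ((S.center_iff ⟨q, hq⟩).2 (Or.inr e'))).symm

/-- Squaring is half the norm modulo two. -/
theorem sq_iff {v : leechLattice} {x : G} (hx : Rep ψ v x) : x * x = 1 ↔ (32 : ℤ) ∣ sqNorm v.1 := by
  obtain ⟨w, hw, hc⟩ := exists_short_rep v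
  have hw' := S.rep_congr hx hc
  have hd := sqNorm_cong hc
  simp only [Set.mem_insert_iff, Set.mem_singleton_iff] at hw
  have hsq : x * x = 1 ↔ sqNorm w.1 ≠ 48 := by
    rcases hw with hw | hw | hw | hw
    · have h0 : w.1 = 0 := by
        by_contra hne
        have := sqNorm_ge w.2 hne
        omega
      refine iff_of_true ?_ (by omega)
      rcases (S.rep_zero_iff hw').1 (by rw [h0]; exact Cong.refl 0) with r | r
      · rw [r, mul_one]
      · rw [r, S.ci.sq]
    · exact iff_of_true ((S.sq_eq_one_iff hw').1 (Or.inl hw)) (by omega)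
    · exact iff_of_false ((S.sq_eq_one_iff hw').2 hw) (by omega)
    · exact iff_of_true ((S.sq_eq_one_iff hw').1 (Or.inr hw)) (by omega)
  rw [hsq]
  rcases hw with hw | hw | hw | hw <;> omega

/-- Commutation with a representative of `leechU`. -/
theorem commute_iff {t : G} (ht : Rep ψ Spor.leechU t) {v : leechLattice} {x : G} (hx : Rep ψ v x) :
    x * t = t * x ↔ (16 : ℤ) ∣ dotInt v.1 Spor.leechU.1 := by
  have ht2 : t * t = 1 := (S.sq_iff ht).2 (by rw [sqNorm_leechU])
  have hxt := S.sq_iff (S.rep_mul hx ht)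
  have hxx := S.sq_iff hx
  rw [AddSubgroup.coe_add, sqNorm_add, sqNorm_leechU] at hxt
  have h16 := sqNorm_mod v.2
  have h8 := eight_dvd_dotInt v Spor.leechU
  rcases S.ci.conj_cases (rep_mem ht) (rep_mem hx) with r | r
  · have hc : x * t = t * x := (mul_inv_eq_iff_eq_mul.1 r).symm
    have e2 : x * t * (x * t) = x * x := by
      calc x * t * (x * t) = x * (t * x) * t := by group
        _ = x * (x * t) * t := by rw [hc]
        _ = x * x * (t * t) := by group
        _ = x * x := by rw [ht2, mul_one]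
    rw [e2] at hxt
    refine iff_of_true hc ?_
    by_cases hh : x * x = 1
    · have := hxt.1 hh; have := hxx.1 hh; omega
    · have := mt hxt.2 hh; have := mt hxx.2 hh; omega
  · have hne : ¬ x * t = t * x := fun hc => by
      rw [← hc, mul_inv_cancel_right, left_eq_mul] at r
      exact S.ci.ne_one r
    have e2 : x * t * (x * t) = x * x * z := by
      calc x * t * (x * t) = x * (t * x * t⁻¹) * (t * t) := by group
        _ = x * x * z := by rw [r, ht2, mul_one, ← mul_assoc]
    rw [e2] at hxt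
    refine iff_of_false hne ?_
    rcases S.ci.sq_mem (rep_mem hx) with hh | hh
    · have h1 : ¬ x * x * z = 1 := by rw [hh, one_mul]; exact S.ci.ne_one
      have := hxx.1 hh; have := mt hxt.2 h1; omega
    · have h1 : x * x * z = 1 := by rw [hh, S.ci.sq]
      have h2 : ¬ x * x = 1 := by rw [hh]; exact S.ci.ne_one
      have := hxt.1 h1; have := mt hxx.2 h2; omega

/-- A conjugate of `Q` through a representative of `leechU`. -/
theorem exists_conj_through {t : G} (ht : Rep ψ Spor.leechU t) :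
    ∃ g : G, g * z * g⁻¹ ∈ amb Q ∧ g * z * g⁻¹ ≠ z ∧ t ∈ (amb Q).map (MulAut.conj g).toMonoidHom := by
  haveI := finite_Co0
  haveI : Fact (Nat.Prime 2) := ⟨Nat.prime_two⟩
  obtain ⟨x0, hx0⟩ := S.rep_surj (crossL none)
  obtain ⟨g0, hg0, hne0⟩ := S.exists_conjugate
  obtain ⟨c, hc, hcx⟩ := S.hasNorm_conj (Or.inr (Or.inr rfl)) (S.conjugate_norm hg0 hne0) ⟨crossL none, sqNorm_cross none, hx0⟩
  have hx00 := S.norm_not_central (x := x0) (by norm_num) le_rfl ⟨crossL none, sqNorm_cross none, hx0⟩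
  refine ⟨c * g0, ?_⟩
  set g := c * g0 with hgdef
  have hgz : g * z * g⁻¹ = x0 := by rw [← hcx, hgdef]; group
  have hs : g * z * g⁻¹ ∈ amb Q := hgz ▸ rep_mem hx0
  have hne : g * z * g⁻¹ ≠ z := hgz ▸ hx00.2
  refine ⟨hs, hne, ?_⟩
  have hr : Rep ψ (crossL none) (g * z * g⁻¹) := hgz ▸ hx0
  obtain ⟨hle, hn⟩ := S.conjLift_le hs hne hr
  obtain ⟨hcard, hp⟩ := S.card_conjLift hs hne
  have heq : S.conjLift g = signs := Subgroup.eq_of_le_of_card_ge (le_signs_of_normal hp hle hn)
    (by rw [card_signs_all]; exact hcard)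
  have D := S.pair hs hne
  set A' := (amb Q).map (MulAut.conj g).toMonoidHom with hA'
  set I := amb Q ⊓ A' with hI
  -- representatives in the intersection
  have four : ∀ d ∈ I, d * t = t * d := by
    intro d hd
    obtain ⟨w, hw⟩ := S.rep_exists hd.1
    obtain ⟨a, ha, hwa⟩ := exists_four_rep (w := w) (by
      intro k hk
      have hm : monomial (one_mem M24) hk ∈ S.conjLift g := heq ▸ mem_signs.2 ⟨k, hk, rfl⟩
      obtain ⟨c', hc', e'⟩ := hm
      have hmt : S.Matches (monomial (one_mem M24) hk) c' := S.proj_eq_iff.1 e'.symm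
      have h1 := S.rep_conj hmt hw
      rcases D.hQ'.conj_cases hc'.1 hd.2 with r | r
      · rw [show (c' : G) * d * (c' : G)⁻¹ = d from r] at h1
        exact Or.inl (S.rep_cong h1 hw)
      · rw [show (c' : G) * d * (c' : G)⁻¹ = d * (g * z * g⁻¹) from r] at h1
        refine Or.inr ?_
        have := S.rep_cong h1 (S.rep_mul hw hr)
        rwa [AddSubgroup.coe_add] at this)
    let y : leechLattice := ⟨(4 : ℤ) • a, four_smul_mem ha⟩
    refine (S.commute_iff ht (S.rep_congr (w := y) hw hwa)).2 ?_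
    show (16 : ℤ) ∣ dotInt ((4 : ℤ) • a) Spor.leechU.1
    refine Finset.dvd_sum fun p _ => ?_
    rw [leechU_apply, Pi.smul_apply, smul_eq_mul]
    split_ifs
    · exact ⟨a p, by ring⟩
    · exact ⟨0, by ring⟩
  set I' := I.subgroupOf (amb Q) with hI'
  have hcI : Nat.card ↥I' = 2 ^ 13 := by
    rw [hI', Nat.card_congr (Subgroup.subgroupOfEquivOfLe inf_le_left).toEquiv]
    exact (S.card_inter hs hne).1
  have hcenter : Subgroup.center ↥(amb Q) ≤ I' := by
    intro u hu
    show (u : G) ∈ I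
    rcases S.ci.eq_of_mem hu with r | r
    · rw [r]; exact one_mem _
    · rw [r]; exact ⟨S.ci.mem, D.hz⟩
  have h1 := Cfsg.Agent.PGroup.extraspecial_card_centralizer_mul S.ci.extra hcenter
  rw [hcI, S.card_amb] at h1
  have habel : I' ≤ Subgroup.centralizer (I' : Set ↥(amb Q)) := by
    intro u hu w hw
    exact Subtype.ext (congrArg (fun q : ↥I => (q : G))
      (D.elementary.1.is_comm.comm ⟨(w : G), hw⟩ ⟨(u : G), hu⟩))
  have hC : Subgroup.centralizer (I' : Set ↥(amb Q)) = I' :=
    (Subgroup.eq_of_le_of_card_ge habel (by rw [hcI]; omega)).symm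
  have htC : (⟨t, rep_mem ht⟩ : ↥(amb Q)) ∈ Subgroup.centralizer (I' : Set ↥(amb Q)) :=
    fun w hw => Subtype.ext (four _ hw)
  rw [hC] at htC
  exact htC.2

/-- The elements of the centraliser of `z` trivial on the centraliser of `t` in `Q` modulo `⟨t, z⟩`. -/
theorem mem_amb_of_trivial {t : G} (ht : Rep ψ Spor.leechU t) (c : Subgroup.centralizer ({z} : Set G))
    (h : ∀ x ∈ amb Q ⊓ Subgroup.centralizer ({t} : Set G),
      (c : G) * x * (c : G)⁻¹ * x⁻¹ ∈ ({1, t, z, t * z} : Set G)) : (c : G) ∈ amb Q := by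
  haveI := finite_Co0
  have h0 : ∀ {y : G}, y ∈ ({1, t, z, t * z} : Set G) →
      ∃ u : leechLattice, (u = 0 ∨ u = Spor.leechU) ∧ Rep ψ u y := by
    intro y hy
    simp only [Set.mem_insert_iff, Set.mem_singleton_iff] at hy
    rcases hy with rfl | rfl | rfl | rfl
    · refine ⟨0, Or.inl rfl, ⟨1, rfl, ?_⟩⟩
      rw [(S.iso.2.2.1 0).2 ⟨0, (add_zero 0).symm⟩]; rfl
    · exact ⟨_, Or.inr rfl, ht⟩
    · exact ⟨0, Or.inl rfl, S.rep_z⟩
    · exact ⟨_, Or.inr rfl, by simpa using S.rep_mul ht S.rep_z⟩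
  obtain ⟨g, hg⟩ := S.exists_matches_right c
  have hperp : ∀ a : leechLattice, (16 : ℤ) ∣ dotInt a.1 Spor.leechU.1 → UCong (g • a) a := by
    intro a ha
    obtain ⟨x, hx⟩ := S.rep_surj a
    obtain ⟨u, hu, hru⟩ := h0 (h x ⟨rep_mem hx, Subgroup.mem_centralizer_singleton_iff.2 ((S.commute_iff ht hx).2 ha)⟩)
    have h1 := S.rep_mul hru hx
    rw [inv_mul_cancel_right] at h1
    have h2 := S.rep_cong (S.rep_conj hg hx) h1
    rcases hu with rfl | rfl
    · exact Or.inl (by rwa [zero_add] at h2)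
    · exact Or.inr (by rwa [add_comm] at h2)
  have hU : g ∈ classStab Spor.leechU := by
    rcases hperp Spor.leechU (by decide +kernel) with r | r
    · exact mem_classStab.2 r
    · exfalso
      rw [AddSubgroup.coe_add] at r
      have hne := S.norm_not_central (x := (c : G) * t * (c : G)⁻¹) (n := 32) (by norm_num) (by norm_num)
        ⟨g • Spor.leechU, (g.2.2 Spor.leechU).trans sqNorm_leechU, S.rep_conj hg ht⟩
      rcases (S.rep_zero_iff (S.rep_conj hg ht)).1 (r.trans (by
        have := cong_double (0 : GolayPt → ℤ) Spor.leechU.2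
        rwa [zero_add] at this)) with s | s
      · exact hne.1 s
      · exact hne.2 s
  have hK : g ∈ perpKernel := ⟨hU, hperp⟩
  have he : (QuotientGroup.mk c : Subgroup.centralizer ({z} : Set G) ⧸ Q) = 1 := by
    rw [← S.proj_eq_iff.2 hg]
    exact MonoidHom.mem_ker.1 (show g ∈ S.proj.ker by
      rw [proj]
      simp [MonoidHom.mem_ker, perpKernel_le_center hK])
  exact ⟨c, (QuotientGroup.eq_one_iff c).1 he, rfl⟩

end Cfsg.Agent.Monster.MSetting
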