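import Cfsg.Prelude.Def_MonsterType
import Cfsg.Agent.Monster.LeechSigns
import Cfsg.Agent.Monster.ExtraForm

/-!
A non-degenerate quadratic form on the Leech lattice modulo 2 that is invariant under the sign changes vanishes on the
vectors `4 x`; hence the extraspecial group of a Monster-type centralizer is of plus type.
-/

set_option autoImplicit false

namespace Cfsg.Agent.Monster

open Cfsg

theorem zmod2_add_self (a : ZMod 2) : a + a = 0 := by revert a; decide

/-- A form on the lattice modulo 2 invariant under the sign changes. -/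
structure SignForm where
  B : leechLattice →+ leechLattice →+ ZMod 2
  q : leechLattice → ZMod 2
  q_add : ∀ v w, q (v + w) = q v + q w + B v w
  B_self : ∀ v, B v v = 0
  B_symm : ∀ v w, B v w = B w v
  nondeg : ∀ v, (∀ w, B v w = 0) → ∃ w : leechLattice, v = w + w
  B_inv : ∀ c hc v w, B (signCo0 c hc • v) (signCo0 c hc • w) = B v w
  q_inv : ∀ c hc v, q (signCo0 c hc • v) = q v

namespace SignForm

variable (F : SignForm)

theorem B_double (v w : leechLattice) : F.B v (w + w) = 0 := by rw [map_add, zmod2_add_self]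

theorem q_double (w : leechLattice) : F.q (w + w) = 0 := by
  rw [F.q_add, zmod2_add_self, F.B_self, add_zero]

theorem q_zero : F.q 0 = 0 := by simpa using F.q_double 0

theorem even_smul_left {x : GolayPt → ℤ} : (2 : ℤ) ∣ ∑ p, ((2 : ℤ) • x) p :=
  Finset.dvd_sum fun p _ => by simp

/-- `8 x` is congruent to a multiple of `8` at the extra point. -/
theorem wVec_two_smul (x : GolayPt → ℤ) (h : (2 : ℤ) ∣ ∑ p, ((2 : ℤ) • x) p) :
    ∃ w : leechLattice, wVec ((2 : ℤ) • x) h = (∑ p, x p) • wZero + (w + w) := by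
  refine ⟨wVec (x - (∑ p, x p) • deltaInf) ?_, Subtype.ext ?_⟩
  · simp [Finset.sum_sub_distrib, deltaInf]
  · funext p
    simp only [wVec, wZero, AddSubgroup.coe_add, AddSubgroup.coe_zsmul, Pi.add_apply, Pi.smul_apply, Pi.sub_apply,
      smul_eq_mul]
    ring

theorem B_two_smul (v : leechLattice) (x : GolayPt → ℤ) (h : (2 : ℤ) ∣ ∑ p, ((2 : ℤ) • x) p) :
    F.B v (wVec ((2 : ℤ) • x) h) = ((∑ p, x p : ℤ) : ZMod 2) * F.B v wZero := by
  obtain ⟨w, hw⟩ := wVec_two_smul x h
  rw [hw, map_add, F.B_double, add_zero, map_zsmul, zsmul_eq_mul]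

/-- The sum of the integer coordinates on a word, modulo 2. -/
def onWord (c : GolayPt → ZMod 2) (x : GolayPt → ℤ) : ZMod 2 := ((∑ p, liftZ c p * x p : ℤ) : ZMod 2)

theorem wVec_congr {x y : GolayPt → ℤ} (e : x = y) (hx : (2 : ℤ) ∣ ∑ p, x p) (hy : (2 : ℤ) ∣ ∑ p, y p) :
    wVec x hx = wVec y hy := by subst e; rfl

theorem B_signW (v : leechLattice) (c : GolayPt → ZMod 2) (x : GolayPt → ℤ) :
    F.B v (wVec _ (sum_even_signW c x)) = onWord c x * F.B v wZero := by
  have e : (-2 : ℤ) • (liftZ c * x) = (2 : ℤ) • (-(liftZ c * x)) := by simp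
  rw [wVec_congr e _ even_smul_left, F.B_two_smul]
  simp [onWord, CharTwo.neg_eq, add_comm]

theorem B_signV (v : leechLattice) (c : GolayPt → ZMod 2) :
    F.B v (wVec _ (sum_even_signV c)) = c none * F.B v wZero := by
  rw [wVec_congr (mul_smul (2 : ℤ) (liftZ c none) deltaInf) _ even_smul_left, F.B_two_smul]
  simp [deltaInf, liftZ_cast]

theorem B_wZero_wVec_inter {c d : GolayPt → ZMod 2} (hc : c ∈ golayCode) (hd : d ∈ golayCode) :
    F.B wZero (wVec _ (sum_even_signC hc hd)) = 0 := by
  have h := F.B_inv c hc wZero (cVec d hd)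
  rw [signCo0_smul_cVec hc hd] at h
  unfold wZero at h
  rw [signCo0_smul_wVec] at h
  have z : ∀ v, F.B (wVec _ (sum_even_signW c ((2 : ℤ) • deltaInf))) v = 0 := by
    intro v
    rw [F.B_symm, F.B_signW]
    have : onWord c ((2 : ℤ) • deltaInf) = 0 := by
      simp [onWord, deltaInf, show (2 : ZMod 2) = 0 from rfl]
    rw [this, zero_mul]
  simp only [map_add, AddMonoidHom.add_apply, z, add_zero] at h
  exact add_left_cancel (h.trans (add_zero _).symm)

theorem B_wZero_cVec {c : GolayPt → ZMod 2} (hc : c ∈ golayCode) : F.B wZero (cVec c hc) = 0 := by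
  have h := F.B_inv c hc wZero Spor.leechV
  rw [signCo0_smul_leechV] at h
  unfold wZero at h
  rw [signCo0_smul_wVec] at h
  have z : ∀ v, F.B (wVec _ (sum_even_signW c ((2 : ℤ) • deltaInf))) v = 0 := by
    intro v
    rw [F.B_symm, F.B_signW]
    have : onWord c ((2 : ℤ) • deltaInf) = 0 := by
      simp [onWord, deltaInf, show (2 : ZMod 2) = 0 from rfl]
    rw [this, zero_mul]
  have e := F.B_signV wZero c
  unfold wZero at e
  rw [F.B_self, mul_zero] at e
  simp only [map_add, AddMonoidHom.add_apply, z, add_zero, e] at h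
  exact add_left_cancel (h.trans (add_zero _).symm)

/-- The product word of a certificate as an integer vector. -/
def certSum (l : List (Fin 24 × Fin 24)) : GolayPt → ℤ :=
  (l.map fun st => -(liftZ (golayGen st.1 * golayGen st.2))).sum

theorem certSum_even (l : List (Fin 24 × Fin 24)) : (2 : ℤ) ∣ ∑ p, certSum l p := by
  induction l with
  | nil => simp [certSum]
  | cons a l ih =>
    have e : certSum (a :: l) = -(liftZ (golayGen a.1 * golayGen a.2)) + certSum l := by simp [certSum]
    simp only [e, Pi.add_apply, Finset.sum_add_distrib]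
    exact dvd_add (sum_even_signC (golayGen_mem _) (golayGen_mem _)) ih

theorem certSum_cast (l : List (Fin 24 × Fin 24)) (p : GolayPt) :
    ((certSum l p : ℤ) : ZMod 2) = (l.map fun st => golayGen st.1 p * golayGen st.2 p).sum := by
  induction l with
  | nil => simp [certSum]
  | cons a l ih =>
    have e : certSum (a :: l) = -(liftZ (golayGen a.1 * golayGen a.2)) + certSum l := by simp [certSum]
    simp [e, ih, liftZ_cast, CharTwo.neg_eq]

/-- The pair vector at the extra point and a residue. -/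
def pairVec (k : Fin 23) : GolayPt → ℤ :=
  fun p => if p = none ∨ p = some (k.val : ZMod 23) then 1 else 0

theorem pairVec_even : ∀ k, (2 : ℤ) ∣ ∑ p, pairVec k p := by decide +kernel

theorem pairVec_cast (k : Fin 23) (p : GolayPt) :
    ((pairVec k p : ℤ) : ZMod 2) = if p = none ∨ p = some (k.val : ZMod 23) then 1 else 0 := by
  unfold pairVec
  split <;> simp

theorem wVec_two_smul_mem (S : AddSubgroup leechLattice) (h0 : wZero ∈ S)
    (h2 : ∀ x hx, wVec x hx + wVec x hx ∈ S) (y : GolayPt → ℤ) : wVec ((2 : ℤ) • y) even_smul_left ∈ S := by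
  have he : (2 : ℤ) ∣ ∑ p, (y - (∑ p, y p) • deltaInf) p := by simp [Finset.sum_sub_distrib, deltaInf]
  have e : wVec ((2 : ℤ) • y) even_smul_left = (∑ p, y p) • wZero + (wVec _ he + wVec _ he) := by
    refine Subtype.ext (funext fun p => ?_)
    simp only [wVec, wZero, AddSubgroup.coe_add, AddSubgroup.coe_zsmul, Pi.add_apply, Pi.smul_apply, Pi.sub_apply,
      smul_eq_mul]
    ring
  rw [e]
  exact add_mem (zsmul_mem h0 _) (h2 _ he)

theorem vanish_pair (S : AddSubgroup leechLattice) (h0 : wZero ∈ S) (h2 : ∀ x hx, wVec x hx + wVec x hx ∈ S)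
    (h : ∀ {c d} (hc : c ∈ golayCode) (hd : d ∈ golayCode), wVec _ (sum_even_signC hc hd) ∈ S) (k : Fin 23) :
    wVec (pairVec k) (pairVec_even k) ∈ S := by
  have hcert : ∀ l, wVec (certSum l) (certSum_even l) ∈ S := by
    intro l
    induction l with
    | nil =>
      rw [show wVec (certSum []) (certSum_even []) = 0 from Subtype.ext (by funext p; simp [wVec, certSum]),
        ]
      exact zero_mem S
    | cons a l ih =>
      rw [show wVec (certSum (a :: l)) (certSum_even (a :: l)) =
          wVec _ (sum_even_signC (golayGen_mem a.1) (golayGen_mem a.2)) + wVec (certSum l) (certSum_even l) from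
        Subtype.ext (by simp [wVec, certSum, smul_add])]
      exact add_mem (h (golayGen_mem a.1) (golayGen_mem a.2)) ih
  have hd : ∀ p, (2 : ℤ) ∣ pairVec k p - certSum (pairCert k) p := by
    intro p
    rw [show (2 : ℤ) = ((2 : ℕ) : ℤ) from rfl, ← ZMod.intCast_eq_intCast_iff_dvd_sub, certSum_cast, pairCert_spec,
      pairVec_cast]
  choose y hy using hd
  have e : wVec (pairVec k) (pairVec_even k) =
      wVec (certSum (pairCert k)) (certSum_even _) + wVec ((2 : ℤ) • y) even_smul_left := by
    refine Subtype.ext ?_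
    funext p
    simp only [wVec, AddSubgroup.coe_add, Pi.add_apply, Pi.smul_apply, smul_eq_mul]
    have := hy p
    linarith
  rw [e]
  exact add_mem (hcert _) (wVec_two_smul_mem S h0 h2 y)

theorem vanish_wVec (S : AddSubgroup leechLattice) (h0 : wZero ∈ S) (h2 : ∀ x hx, wVec x hx + wVec x hx ∈ S)
    (h : ∀ {c d} (hc : c ∈ golayCode) (hd : d ∈ golayCode), wVec _ (sum_even_signC hc hd) ∈ S)
    (x : GolayPt → ℤ) (hx : (2 : ℤ) ∣ ∑ p, x p) : wVec x hx ∈ S := by
  have key : ∀ s : Finset GolayPt, ∀ x : GolayPt → ℤ, (∀ p ∉ s, p ≠ none → (2 : ℤ) ∣ x p) →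
      ∀ hx : (2 : ℤ) ∣ ∑ p, x p, wVec x hx ∈ S := by
    intro s
    induction s using Finset.induction_on with
    | empty =>
      intro x hs hx
      have hn : (2 : ℤ) ∣ x none := by
        rw [← Finset.add_sum_erase _ _ (Finset.mem_univ none)] at hx
        have h' : (2 : ℤ) ∣ ∑ p ∈ Finset.univ.erase none, x p :=
          Finset.dvd_sum fun p hp => hs p (Finset.notMem_empty p) (Finset.mem_erase.1 hp).1
        exact (dvd_add_left h').1 hx
      have hall : ∀ p, (2 : ℤ) ∣ x p := fun p => by
        by_cases hp : p = none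
        · exact hp ▸ hn
        · exact hs p (Finset.notMem_empty p) hp
      choose y hy using hall
      rw [wVec_congr (show x = (2 : ℤ) • y from funext fun p => by simpa using hy p) _ even_smul_left]
      exact wVec_two_smul_mem S h0 h2 y
    | @insert a s ha ih =>
      intro x hs hx
      by_cases hev : (2 : ℤ) ∣ x a ∨ a = none
      · refine ih x (fun p hp hpn => ?_) hx
        by_cases hpa : p = a
        · subst hpa
          exact hev.resolve_right hpn
        · exact hs p (by simp [hp, hpa]) hpn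
      · push Not at hev
        obtain ⟨hodd, han⟩ := hev
        obtain ⟨t, rfl⟩ := Option.ne_none_iff_exists'.1 han
        let k : Fin 23 := ⟨t.val, ZMod.val_lt t⟩
        have hk : ((k.val : ℕ) : ZMod 23) = t := ZMod.natCast_rightInverse t
        have hx' : (2 : ℤ) ∣ ∑ p, (x - pairVec k) p := by
          simp only [Pi.sub_apply, Finset.sum_sub_distrib]
          exact dvd_sub hx (pairVec_even k)
        have hrest := ih (x - pairVec k) (fun p hp hpn => by
          simp only [Pi.sub_apply, pairVec, hk]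
          by_cases hpa : p = some t
          · subst hpa
            simp
            omega
          · simpa [hpn, hpa] using hs p (by simp [hp, hpa]) hpn) hx'
        rw [show wVec x hx = wVec _ hx' + wVec _ (pairVec_even k) from Subtype.ext (by simp [wVec, smul_sub]),
          ]
        exact add_mem hrest (vanish_pair S h0 h2 h k)
  exact key Finset.univ x (fun p hp => absurd (Finset.mem_univ p) hp) hx

theorem B_wZero_wVec (x : GolayPt → ℤ) (hx : (2 : ℤ) ∣ ∑ p, x p) : F.B wZero (wVec x hx) = 0 :=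
  AddMonoidHom.mem_ker.1 (vanish_wVec (F.B wZero).ker (F.B_self _)
    (fun _ _ => by rw [AddMonoidHom.mem_ker, F.B_double]) (fun hc hd => F.B_wZero_wVec_inter hc hd) x hx)

theorem not_double_wZero : ¬ ∃ w : leechLattice, wZero = w + w := by
  rintro ⟨w, hw⟩
  obtain ⟨-, h8, -⟩ := leechInv_of_mem w.2
  have e : ∀ p, (w : GolayPt → ℤ) p = (4 : ℤ) * deltaInf p := by
    intro p
    have := congrArg (fun v : leechLattice => (v : GolayPt → ℤ) p) hw
    simp [wZero, wVec] at this
    linarith
  simp [e, deltaInf] at h8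

theorem B_wZero_leechV : F.B wZero Spor.leechV = 1 := by
  rcases zmod2_cases (F.B wZero Spor.leechV) with h | h
  · exfalso
    refine not_double_wZero (F.nondeg wZero fun v => ?_)
    refine leech_induction (P := fun v => F.B wZero v = 0) (map_zero _) ?_ ?_ h ?_ ?_ v
    · intro v w hv hw
      rw [map_add, hv, hw, add_zero]
    · intro v hv
      rw [map_neg, hv, neg_zero]
    · intro c hc
      exact F.B_wZero_cVec hc
    · intro x hx
      exact F.B_wZero_wVec x hx
  · exact h

theorem onWord_signC {c d e : GolayPt → ZMod 2} :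
    onWord e (-(liftZ (c * d))) = ∑ p, e p * (c p * d p) := by
  simp [onWord, liftZ_cast, CharTwo.neg_eq, add_comm]

theorem B_wVec_cVec (x : GolayPt → ℤ) (hx : (2 : ℤ) ∣ ∑ p, x p) {c : GolayPt → ZMod 2} (hc : c ∈ golayCode) :
    F.B (wVec x hx) (cVec c hc) = onWord c x := by
  have h := F.B_inv c hc (wVec x hx) Spor.leechV
  rw [signCo0_smul_leechV, signCo0_smul_wVec] at h
  have z : ∀ v, F.B (wVec _ (sum_even_signW c x)) v = onWord c x * F.B wZero v := by
    intro v
    rw [F.B_symm, F.B_signW, F.B_symm wZero]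
  have e : F.B (wVec x hx) wZero = 0 := by rw [F.B_symm]; exact F.B_wZero_wVec x hx
  have hcc := F.B_wZero_cVec hc
  have hw0 := F.B_self wZero
  simp only [map_add, AddMonoidHom.add_apply, F.B_signV, z, e, hcc, hw0, F.B_wZero_leechV, mul_zero, mul_one,
    add_zero, zero_add] at h
  generalize F.B (wVec x hx) Spor.leechV = a at h
  generalize onWord c x = b at h ⊢
  generalize F.B (wVec x hx) (cVec c hc) = d at h ⊢
  revert h
  revert a b d
  decide

theorem B_wVec_inter (x : GolayPt → ℤ) (hx : (2 : ℤ) ∣ ∑ p, x p) {c d : GolayPt → ZMod 2} (hc : c ∈ golayCode)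
    (hd : d ∈ golayCode) : F.B (wVec x hx) (wVec _ (sum_even_signC hc hd)) = 0 := by
  have h := F.B_inv c hc (wVec x hx) (cVec d hd)
  rw [signCo0_smul_cVec hc hd, signCo0_smul_wVec] at h
  have z : ∀ v, F.B (wVec _ (sum_even_signW c x)) v = onWord c x * F.B wZero v := by
    intro v
    rw [F.B_symm, F.B_signW, F.B_symm wZero]
  simp only [map_add, AddMonoidHom.add_apply, z, F.B_wZero_cVec hd, F.B_wZero_wVec_inter hc hd, mul_zero,
    add_zero] at h
  exact add_left_cancel (h.trans (add_zero _).symm)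

theorem B_wVec_wVec (x y : GolayPt → ℤ) (hx : (2 : ℤ) ∣ ∑ p, x p) (hy : (2 : ℤ) ∣ ∑ p, y p) :
    F.B (wVec x hx) (wVec y hy) = 0 :=
  AddMonoidHom.mem_ker.1 (vanish_wVec (F.B (wVec x hx)).ker
    (by rw [AddMonoidHom.mem_ker, F.B_symm]; exact F.B_wZero_wVec x hx)
    (fun _ _ => by rw [AddMonoidHom.mem_ker, F.B_double]) (fun hc hd => F.B_wVec_inter x hx hc hd) y hy)

theorem q_wZero : F.q wZero = 0 := by
  have h := F.q_inv (qrWord 0) (Submodule.subset_span (Or.inl ⟨0, rfl⟩)) (wVec (pairVec 0) (pairVec_even 0))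
  erw [signCo0_smul_wVec] at h
  rw [F.q_add, F.B_wVec_wVec, add_zero] at h
  have h' : F.q (wVec _ (sum_even_signW (qrWord 0) (pairVec 0))) = 0 := add_left_cancel (h.trans (add_zero _).symm)
  have e : (-2 : ℤ) • (liftZ (qrWord 0) * pairVec 0) = (2 : ℤ) • (-(liftZ (qrWord 0) * pairVec 0)) := by simp
  obtain ⟨w, hw⟩ := wVec_two_smul (-(liftZ (qrWord 0) * pairVec 0)) even_smul_left
  have e2 : ∑ p, (-(liftZ (qrWord 0) * pairVec 0)) p = (-1 : ℤ) := by decide +kernel
  rw [wVec_congr e _ even_smul_left, hw, e2, neg_one_zsmul, F.q_add, F.q_double, F.B_double, add_zero,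
    add_zero] at h'
  have h2 := F.q_add (-wZero) wZero
  rw [neg_add_cancel, F.q_zero, h', map_neg, AddMonoidHom.neg_apply, F.B_self, neg_zero, zero_add, add_zero] at h2
  exact h2.symm

theorem q_inter {c d : GolayPt → ZMod 2} (hc : c ∈ golayCode) (hd : d ∈ golayCode) :
    F.q (wVec _ (sum_even_signC hc hd)) = 0 := by
  have h := F.q_inv c hc (cVec d hd)
  rw [signCo0_smul_cVec hc hd, F.q_add, F.B_symm, F.B_wVec_cVec, add_assoc] at h
  have h' := add_left_cancel (h.trans (add_zero _).symm)
  have e : onWord d (-(liftZ (c * d))) = 0 := by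
    rw [onWord_signC, ← golay_dot hc hd]
    refine Finset.sum_congr rfl fun p _ => ?_
    rcases zmod2_cases (d p) with h | h <;> simp [h]
  rwa [e, add_zero] at h'

theorem q_wVec (x : GolayPt → ℤ) (hx : (2 : ℤ) ∣ ∑ p, x p) : F.q (wVec x hx) = 0 := by
  let S : AddSubgroup leechLattice :=
    { carrier := {v | (∃ x hx, v = wVec x hx) ∧ F.q v = 0}
      zero_mem' := ⟨⟨0, by simp, Subtype.ext (by simp [wVec])⟩, F.q_zero⟩
      add_mem' := by
        rintro _ _ ⟨⟨x, hx, rfl⟩, hqx⟩ ⟨⟨y, hy, rfl⟩, hqy⟩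
        refine ⟨⟨x + y, ?_, Subtype.ext (by simp [wVec, smul_add])⟩, ?_⟩
        · simp only [Pi.add_apply, Finset.sum_add_distrib]
          exact dvd_add hx hy
        · rw [F.q_add, F.B_wVec_wVec, hqx, hqy, add_zero, add_zero]
      neg_mem' := by
        rintro _ ⟨⟨x, hx, rfl⟩, hqx⟩
        refine ⟨⟨-x, by simp only [Pi.neg_apply, Finset.sum_neg_distrib]; exact (dvd_neg).2 hx, Subtype.ext (by simp [wVec])⟩, ?_⟩
        have h := F.q_add (-wVec x hx) (wVec x hx)
        rw [neg_add_cancel, F.q_zero, hqx, map_neg, AddMonoidHom.neg_apply, F.B_self, neg_zero, add_zero,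
          add_zero] at h
        exact h.symm }
  refine (vanish_wVec S ⟨⟨_, _, rfl⟩, F.q_wZero⟩ (fun y hy => ⟨⟨y + y, ?_, Subtype.ext ?_⟩, F.q_double _⟩)
    (fun hc hd => ⟨⟨_, _, rfl⟩, F.q_inter hc hd⟩) x hx).2
  · simp only [Pi.add_apply, Finset.sum_add_distrib]
    exact dvd_add hy hy
  · simp [wVec, smul_add]

end SignForm

end Cfsg.Agent.Monster
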