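import Cfsg.Agent.Monster.PlusType
import Cfsg.Agent.LargeExtra.Large
import Cfsg.Agent.Leech.ModTwo

/-!
A group of Monster type: the classes of the elements of `Q` as classes of lattice vectors modulo 2.
-/

set_option autoImplicit false

namespace Cfsg.Agent.Monster

open Cfsg

variable {G : Type*} [Group G] [Finite G] {z : G}

/-- The ambient subgroup. -/
abbrev amb (Q : Subgroup (Subgroup.centralizer ({z} : Set G))) : Subgroup G :=
  Q.map (Subgroup.centralizer ({z} : Set G)).subtype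

/-- The hypotheses of Monster type with the data chosen. -/
structure MSetting (z : G) (Q : Subgroup (Subgroup.centralizer ({z} : Set G))) [Q.Normal]
    (e : (Subgroup.centralizer ({z} : Set G)) ⧸ Q ≃* Spor.Co1) (ψ : leechLattice → Q ⧸ Subgroup.center Q) : Prop where
  setting : IsExtraspecialCentralizerSetting z Q 12
  iso : IsLeechModTwoIso Q e ψ

theorem exists_msetting {Q : Subgroup (Subgroup.centralizer ({z} : Set G))} [Q.Normal]
    (hM : IsOfMonsterType z Q) : ∃ e ψ, MSetting z Q e ψ := by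
  obtain ⟨hs, e, ψ, hψ⟩ := hM
  exact ⟨e, ψ, hs, hψ⟩

variable {Q : Subgroup (Subgroup.centralizer ({z} : Set G))} [Q.Normal]
  {e : (Subgroup.centralizer ({z} : Set G)) ⧸ Q ≃* Spor.Co1} {ψ : leechLattice → Q ⧸ Subgroup.center Q}

/-- The element `x` of `Q` lies in the class given by `v`. -/
def Rep (ψ : leechLattice → Q ⧸ Subgroup.center Q) (v : leechLattice) (x : G) : Prop :=
  ∃ q : Q, ((q : Subgroup.centralizer ({z} : Set G)) : G) = x ∧ ψ v = QuotientGroup.mk q

/-- The element `x` of `Q` lies in a class with a member of squared length `n`. -/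
def HasNorm (ψ : leechLattice → Q ⧸ Subgroup.center Q) (n : ℤ) (x : G) : Prop :=
  ∃ v : leechLattice, sqNorm (v : GolayPt → ℤ) = n ∧ Rep ψ v x

namespace MSetting

variable (S : MSetting z Q e ψ)
include S

theorem facts : LargeExtra.CentralInvolution (amb Q) z ∧
    Subgroup.centralizer (amb Q : Set G) ≤ Subgroup.zpowers z ∧
    Subgroup.centralizer ({z} : Set G) ≤ Subgroup.normalizer (amb Q : Set G) ∧
    Nat.card ↥(amb Q) = 2 ^ 25 := by
  obtain ⟨hz, hF, hQ, hcard, -⟩ := S.setting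
  have hE : IsExtraspecial 2 ↥(amb Q) :=
    LargeExtra.isExtraspecial_map_equiv hQ (Q.equivMapOfInjective _ (Subgroup.centralizer ({z} : Set G)).subtype_injective)
  obtain ⟨h1, h2, h3⟩ := LargeExtra.centralInvolution_of_genFitting hz (Q := amb Q) (by rw [amb, hF]) hE
  refine ⟨h1, h2, h3, ?_⟩
  rw [← Nat.card_congr (Q.equivMapOfInjective _ (Subgroup.centralizer ({z} : Set G)).subtype_injective).toEquiv, hcard]

theorem ci : LargeExtra.CentralInvolution (amb Q) z := S.facts.1

theorem centralizer_eq : Subgroup.centralizer (amb Q : Set G) = Subgroup.zpowers z :=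
  le_antisymm S.facts.2.1 (Subgroup.zpowers_le.2 fun q hq => S.ci.comm q hq)

theorem norm_le : Subgroup.centralizer ({z} : Set G) ≤ Subgroup.normalizer (amb Q : Set G) := S.facts.2.2.1

theorem card_amb : Nat.card ↥(amb Q) = 2 ^ 25 := S.facts.2.2.2

theorem center_iff (q : Q) : q ∈ Subgroup.center Q ↔
    ((q : Subgroup.centralizer ({z} : Set G)) : G) = 1 ∨ ((q : Subgroup.centralizer ({z} : Set G)) : G) = z := by
  constructor
  · intro hq
    refine S.ci.of_central _ ⟨_, q.2, rfl⟩ ?_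
    rintro _ ⟨r, hr, rfl⟩
    exact congrArg (fun x : Q => ((x : Subgroup.centralizer ({z} : Set G)) : G))
      (Subgroup.mem_center_iff.1 hq ⟨r, hr⟩)
  · intro h
    refine Subgroup.mem_center_iff.2 fun r => Subtype.ext (Subtype.ext ?_)
    have hr := Subgroup.mem_centralizer_singleton_iff.1 (r : Subgroup.centralizer ({z} : Set G)).2
    show ((r : Subgroup.centralizer ({z} : Set G)) : G) * ((q : Subgroup.centralizer ({z} : Set G)) : G) = _
    rcases h with h | h
    · simp [h]
    · simp only [Subgroup.coe_mul, h, hr]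

omit S in
theorem rep_mem {v : leechLattice} {x : G} (h : Rep ψ v x) : x ∈ amb Q := by
  obtain ⟨q, rfl, -⟩ := h
  exact ⟨_, q.2, rfl⟩

theorem rep_exists {x : G} (hx : x ∈ amb Q) : ∃ v, Rep ψ v x := by
  obtain ⟨q, hq, rfl⟩ := hx
  obtain ⟨v, hv⟩ := S.iso.2.1 (QuotientGroup.mk ⟨q, hq⟩)
  exact ⟨v, ⟨q, hq⟩, rfl, hv⟩

theorem rep_surj (v : leechLattice) : ∃ x, Rep ψ v x := by
  obtain ⟨q, hq⟩ := QuotientGroup.mk_surjective (ψ v)
  exact ⟨_, q, rfl, hq.symm⟩

theorem psi_congr {v w : leechLattice} (h : Leech.Cong (v : GolayPt → ℤ) w) : ψ v = ψ w := by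
  obtain ⟨t, ht, he⟩ := h
  have e1 : v = w + ((⟨t, ht⟩ : leechLattice) + ⟨t, ht⟩) := Subtype.ext (by
    rw [AddSubgroup.coe_add, AddSubgroup.coe_add, ← two_nsmul, ← he]
    abel)
  rw [e1, S.iso.1, (S.iso.2.2.1 _).2 ⟨⟨t, ht⟩, rfl⟩, mul_one]

theorem psi_eq_iff {v w : leechLattice} : ψ v = ψ w ↔ Leech.Cong (v : GolayPt → ℤ) w := by
  refine ⟨fun h => ?_, S.psi_congr⟩
  have h0 : ψ (v - w) = 1 := by
    have := S.iso.1 (v - w) w
    rw [sub_add_cancel, h] at this
    exact mul_eq_right.1 this.symm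
  obtain ⟨t, ht⟩ := (S.iso.2.2.1 _).1 h0
  exact ⟨t, t.2, by rw [two_nsmul, ← AddSubgroup.coe_add, ← ht, AddSubgroup.coe_sub]⟩

theorem rep_pair {v w : leechLattice} {x y : G} (hx : Rep ψ v x) (hy : Rep ψ w y)
    (h : Leech.Cong (v : GolayPt → ℤ) w) : y = x ∨ y = x * z := by
  obtain ⟨q, rfl, hq⟩ := hx
  obtain ⟨r, rfl, hr⟩ := hy
  rw [S.psi_congr h, hr] at hq
  rcases (S.center_iff _).1 (QuotientGroup.eq.1 hq.symm) with e1 | e1
  all_goals simp only [Subgroup.coe_mul, Subgroup.coe_inv] at e1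
  · exact Or.inl (inv_mul_eq_one.1 e1).symm
  · exact Or.inr (inv_mul_eq_iff_eq_mul.1 e1)

theorem rep_cong {v w : leechLattice} {x : G} (hx : Rep ψ v x) (hy : Rep ψ w x) :
    Leech.Cong (v : GolayPt → ℤ) w := by
  obtain ⟨q, rfl, hq⟩ := hx
  obtain ⟨r, hr', hr⟩ := hy
  obtain rfl : r = q := Subtype.ext (Subtype.ext hr')
  exact S.psi_eq_iff.1 (hq.trans hr.symm)

theorem rep_mul {v w : leechLattice} {x y : G} (hx : Rep ψ v x) (hy : Rep ψ w y) : Rep ψ (v + w) (x * y) := by
  obtain ⟨q, rfl, hq⟩ := hx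
  obtain ⟨r, rfl, hr⟩ := hy
  exact ⟨q * r, rfl, by rw [S.iso.1, hq, hr]; rfl⟩

theorem rep_zero_iff {v : leechLattice} {x : G} (hx : Rep ψ v x) :
    Leech.Cong (v : GolayPt → ℤ) 0 ↔ x = 1 ∨ x = z := by
  obtain ⟨q, rfl, hq⟩ := hx
  rw [show (0 : GolayPt → ℤ) = ((0 : leechLattice) : GolayPt → ℤ) from rfl, ← S.psi_eq_iff,
    (S.iso.2.2.1 0).2 ⟨0, (add_zero 0).symm⟩, hq, QuotientGroup.eq_one_iff, S.center_iff]

/-- `g` in `Co0` and `c` in the centraliser of `z` have the same image. -/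
def Matches (_ : MSetting z Q e ψ) (g : Co0) (c : Subgroup.centralizer ({z} : Set G)) : Prop :=
  (QuotientGroup.mk g : Spor.Co1) = e (QuotientGroup.mk c)

theorem exists_matches_left (g : Co0) : ∃ c, S.Matches g c := by
  obtain ⟨c, hc⟩ := QuotientGroup.mk_surjective (e.symm (QuotientGroup.mk g))
  exact ⟨c, by rw [Matches, hc, MulEquiv.apply_symm_apply]⟩

theorem exists_matches_right (c : Subgroup.centralizer ({z} : Set G)) : ∃ g, S.Matches g c := by
  obtain ⟨g, hg⟩ := QuotientGroup.mk_surjective (e (QuotientGroup.mk c))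
  exact ⟨g, hg⟩

theorem rep_conj {g : Co0} {c : Subgroup.centralizer ({z} : Set G)} (hgc : S.Matches g c) {v : leechLattice}
    {x : G} (hx : Rep ψ v x) : Rep ψ (g • v) ((c : G) * x * (c : G)⁻¹) := by
  obtain ⟨q, rfl, hq⟩ := hx
  exact ⟨_, by simp, S.iso.2.2.2 c g hgc v q hq⟩

/-- The squaring form: zero on classes of squared length 32 and 64, one on those of 48. -/
theorem sq_eq_one_iff {v : leechLattice} {x : G} (hx : Rep ψ v x) :
    (sqNorm (v : GolayPt → ℤ) = 32 ∨ sqNorm (v : GolayPt → ℤ) = 64 → x * x = 1) ∧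
      (sqNorm (v : GolayPt → ℤ) = 48 → x * x ≠ 1) := by
  obtain ⟨B, q, hq, hB, hqadd, hBself, hBsymm, hnd, hinv⟩ :=
    exists_extraspecial_form S.setting.2.2.1 ψ S.iso.1
  have hinv' : ∀ g : Co0, (∀ a b, B (g • a) (g • b) = B a b) ∧ ∀ a, q (g • a) = q a := by
    intro g
    obtain ⟨c, hc⟩ := S.exists_matches_left g
    refine hinv (MulAut.conjNormal c) (fun a => g • a) fun a r ha => ?_
    rw [S.iso.2.2.2 c g hc a r ha]
    rfl
  let F : SignForm :=
    { B := B, q := q, q_add := hqadd, B_self := hBself, B_symm := hBsymm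
      nondeg := fun a h => (S.iso.2.2.1 a).1 (hnd S.iso.2.1 a h)
      B_inv := fun c hc => (hinv' _).1
      q_inv := fun c hc => (hinv' _).2 }
  have hval : ∀ {a : leechLattice} {y : G}, Rep ψ a y → (q a = 0 ↔ y * y = 1) := by
    rintro a _ ⟨r, rfl, hr⟩
    rw [hq a r hr, pow_two]
    constructor
    · intro h
      exact congrArg (fun w : Q => ((w : Subgroup.centralizer ({z} : Set G)) : G)) h
    · intro h
      exact Subtype.ext (Subtype.ext h)
  -- the values on the three standard vectors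
  have h32 : q Spor.leechU = 0 := by
    have e : Spor.leechU = wVec (fun p => if p = none ∨ p = some 0 then 1 else 0) (by decide +kernel) := by
      refine Subtype.ext (funext fun p => ?_)
      simp only [Spor.leechU, Spor.vecU, wVec, Pi.smul_apply, smul_eq_mul]
      split <;> simp
    rw [e]
    exact F.q_wVec _ _
  have h64 : q (Leech.crossL none) = 0 := by
    have e : Leech.crossL none = wVec ((2 : ℤ) • deltaInf) sum_two_deltaInf := by
      refine Subtype.ext (funext fun p => ?_)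
      simp only [Leech.crossL, Leech.cross, wVec, deltaInf, Pi.smul_apply, smul_eq_mul]
      split <;> simp
    rw [e]
    exact F.q_wVec _ _
  have tr : ∀ {t a : leechLattice}, Leech.Conj (t : GolayPt → ℤ) (a : GolayPt → ℤ) → q t = q a := by
    intro t a h
    obtain ⟨_, g, -, hg⟩ := h
    rw [show a = g • t from Subtype.ext hg.symm]
    exact ((hinv' g).2 t).symm
  have same : ∀ {a b : leechLattice}, (sqNorm (a : GolayPt → ℤ) = sqNorm (b : GolayPt → ℤ)) →
      (sqNorm (a : GolayPt → ℤ) = 32 ∨ sqNorm (a : GolayPt → ℤ) = 48 ∨ sqNorm (a : GolayPt → ℤ) = 64) → q a = q b := by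
    intro a b hab ha
    rcases ha with ha | ha | ha
    · exact tr ((Leech.conj32 a.2 ha).trans (Leech.conj32 b.2 (hab ▸ ha)).symm)
    · exact tr ((Leech.conj48 a.2 ha).trans (Leech.conj48 b.2 (hab ▸ ha)).symm)
    · exact tr ((Leech.conj64 a.2 ha).trans (Leech.conj64 b.2 (hab ▸ ha)).symm)
  have hU : sqNorm (Spor.leechU : GolayPt → ℤ) = 32 := by decide +kernel
  have hW : sqNorm (Leech.crossL none : GolayPt → ℤ) = 64 := Leech.sqNorm_cross none
  have hzero : ∀ {a : leechLattice}, sqNorm (a : GolayPt → ℤ) = 32 ∨ sqNorm (a : GolayPt → ℤ) = 64 → q a = 0 := by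
    rintro a (ha | ha)
    · rw [same (ha.trans hU.symm) (Or.inl ha), h32]
    · rw [same (ha.trans hW.symm) (Or.inr (Or.inr ha)), h64]
  have hone : ∀ {a : leechLattice}, sqNorm (a : GolayPt → ℤ) = 48 → q a ≠ 0 := by
    intro a ha ha0
    have hall : ∀ b : leechLattice, q b = 0 := by
      intro b
      obtain ⟨w, hw, hc⟩ := Leech.exists_short_rep b
      have hb : q b = q w := by
        obtain ⟨t, ht, he⟩ := hc
        have e1 : b = w + ((⟨t, ht⟩ : leechLattice) + ⟨t, ht⟩) := Subtype.ext (by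
          rw [AddSubgroup.coe_add, AddSubgroup.coe_add, ← two_nsmul, ← he]
          abel)
        have hd : q ((⟨t, ht⟩ : leechLattice) + ⟨t, ht⟩) = 0 := F.q_double ⟨t, ht⟩
        rw [e1, hqadd, hd, add_zero, map_add, zmod2_add_self, add_zero]
      rw [hb]
      simp only [Set.mem_insert_iff, Set.mem_singleton_iff] at hw
      rcases hw with hw | hw | hw | hw
      · have : w = 0 := by
          refine Subtype.ext ?_
          by_contra hne
          have := Leech.sqNorm_ge w.2 hne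
          omega
        rw [this]
        exact F.q_zero
      · exact hzero (Or.inl hw)
      · rw [same (hw.trans ha.symm) (Or.inr (Or.inl hw)), ha0]
      · exact hzero (Or.inr hw)
    obtain ⟨t, ht⟩ := F.nondeg Spor.leechV fun b => by
      have := hqadd Spor.leechV b
      rw [hall, hall, hall, zero_add, zero_add] at this
      exact this.symm
    have hN : sqNorm (Spor.leechV : GolayPt → ℤ) = 48 := by decide +kernel
    have h5 := congrArg (fun w : leechLattice => (w : GolayPt → ℤ) none) ht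
    simp only [Spor.leechV, Spor.vecV, AddSubgroup.coe_add, Pi.add_apply] at h5
    simp at h5
    omega
  exact ⟨fun h => (hval hx).1 (hzero h), fun h h1 => hone h ((hval hx).2 h1)⟩

theorem involution_norm {x : G} (hx : x ∈ amb Q) (hx2 : x * x = 1) (h1 : x ≠ 1) (hz : x ≠ z) :
    HasNorm ψ 32 x ∨ HasNorm ψ 64 x := by
  obtain ⟨v, hv⟩ := S.rep_exists hx
  obtain ⟨w, hw, hc⟩ := Leech.exists_short_rep v
  have hw' : Rep ψ w x := by
    obtain ⟨q, rfl, hq⟩ := hv
    exact ⟨q, rfl, (S.psi_congr hc).symm.trans hq⟩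
  simp only [Set.mem_insert_iff, Set.mem_singleton_iff] at hw
  rcases hw with hw | hw | hw | hw
  · exfalso
    have h0 : (w : GolayPt → ℤ) = 0 := by
      by_contra hne
      have := Leech.sqNorm_ge w.2 hne
      omega
    rcases (S.rep_zero_iff hw').1 (by rw [h0]; exact Leech.Cong.refl 0) with r | r
    · exact h1 r
    · exact hz r
  · exact Or.inl ⟨w, hw, hw'⟩
  · exact absurd hx2 ((S.sq_eq_one_iff hw').2 hw)
  · exact Or.inr ⟨w, hw, hw'⟩

theorem norm_not_central {n : ℤ} (hn : 0 < n) (hn' : n ≤ 64) {x : G} (hx : HasNorm ψ n x) : x ≠ 1 ∧ x ≠ z := by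
  obtain ⟨v, hv, hr⟩ := hx
  have h : ¬ Leech.Cong (v : GolayPt → ℤ) ((0 : leechLattice) : GolayPt → ℤ) := fun h => by
    have h0 : sqNorm ((0 : leechLattice) : GolayPt → ℤ) = 0 := by simp [sqNorm]
    have := Leech.classes_distinct (v := v) (w := (0 : leechLattice)) (by omega) (by omega)
      (Leech.classMap_eq_iff.2 h.symm)
    omega
  exact ⟨fun e => h ((S.rep_zero_iff hr).2 (Or.inl e)), fun e => h ((S.rep_zero_iff hr).2 (Or.inr e))⟩

theorem hasNorm_unique {m n : ℤ} (hm : m ≤ 64) (hn : n ≤ 64) {x : G} (h : HasNorm ψ m x) (h' : HasNorm ψ n x) :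
    m = n := by
  obtain ⟨v, hv, hr⟩ := h
  obtain ⟨w, hw, hr'⟩ := h'
  rw [← hv, ← hw]
  exact Leech.classes_distinct (by omega) (by omega) (Leech.classMap_eq_iff.2 (S.rep_cong hr' hr))

/-- Elements of classes of one length are conjugate in the centraliser of `z`. -/
theorem hasNorm_conj {n : ℤ} (hn : n = 32 ∨ n = 48 ∨ n = 64) {x y : G} (hx : HasNorm ψ n x) (hy : HasNorm ψ n y) :
    ∃ c ∈ Subgroup.centralizer ({z} : Set G), c * x * c⁻¹ = y := by
  obtain ⟨hy1, hyz⟩ := S.norm_not_central (by rcases hn with h | h | h <;> omega) (by rcases hn with h | h | h <;> omega) hy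
  obtain ⟨v, hv, hr⟩ := hx
  obtain ⟨w, hw, hr'⟩ := hy
  have key : ∀ {t : GolayPt → ℤ}, Leech.Conj v.1 t → Leech.Conj w.1 t →
      ∃ c ∈ Subgroup.centralizer ({z} : Set G), c * x * c⁻¹ = y := by
    intro t h1 h2
    obtain ⟨g, hg⟩ := Leech.exists_smul_eq_of_conj h1 h2
    obtain ⟨c, hc⟩ := S.exists_matches_left g
    rcases S.rep_pair (hg ▸ S.rep_conj hc hr) hr' (Leech.Cong.refl _) with r | r
    · exact ⟨c, c.2, r.symm⟩
    · obtain ⟨q, hq, hqy⟩ := S.ci.exists_swap (rep_mem hr') hy1 hyz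
      refine ⟨q * c, mul_mem (S.ci.le_centralizer hq) c.2, ?_⟩
      have hr2 : (c : G) * x * (c : G)⁻¹ = y * z := by
        rw [r, mul_assoc _ z z, S.ci.sq, mul_one]
      calc q * c * x * (q * c)⁻¹ = q * ((c : G) * x * (c : G)⁻¹) * q⁻¹ := by group
        _ = (q * y * q⁻¹) * (q * z * q⁻¹) := by rw [hr2]; group
        _ = y * z * z := by rw [hqy, S.ci.comm q hq, mul_inv_cancel_right]
        _ = y := by rw [mul_assoc, S.ci.sq, mul_one]
  rcases hn with rfl | rfl | rfl
  · exact key (Leech.conj32 v.2 hv) (Leech.conj32 w.2 hw)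
  · exact key (Leech.conj48 v.2 hv) (Leech.conj48 w.2 hw)
  · exact key (Leech.conj64 v.2 hv) (Leech.conj64 w.2 hw)

end MSetting

end Cfsg.Agent.Monster
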