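import Cfsg.Agent.Monster.Setting
import Cfsg.Agent.Monster.Stabiliser
import Cfsg.Agent.LargeExtra.PairGroup

/-!
A conjugate `s` of `z` in `Q` other than `z`: its class has squared length 64, and the shape of its stabiliser.
-/

set_option autoImplicit false

namespace Cfsg.Agent.Monster

open Cfsg Cfsg.Agent.Leech

/-- The permutations of the code as lattice automorphisms. -/
noncomputable def permLift : M24 →* Co0 :=
  MonoidHom.mk' (fun σ => monomial (inv_mem σ.2) empty_support) fun σ τ => co0_ext fun x => by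
    rw [mul_smul, monomial_smul, monomial_smul, monomial_smul]
    funext p
    simp [flipOn, mul_inv_rev]

theorem permLift_mem (σ : M24) : permLift σ ∈ crossStab := monomial_mem (inv_mem σ.2) empty_support

theorem permHom_permLift (σ : M24) : permHom ⟨permLift σ, permLift_mem σ⟩ = σ := by
  show permHom ⟨monomial (inv_mem σ.2) empty_support, _⟩ = _
  rw [permHom_monomial (inv_mem σ.2), inv_inv]

theorem eq_one_of_permLift_mem {σ : M24} (h : permLift σ ∈ signs) : σ = 1 := by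
  obtain ⟨w, hw, e⟩ := h
  obtain rfl : w = ⟨permLift σ, permLift_mem σ⟩ := Subtype.ext e
  exact Subtype.ext ((permHom_permLift σ).symm.trans hw)

/-- The centraliser of a non-central element of an extraspecial 2-group has index two. -/
theorem card_inf_centralizer {G : Type*} [Group G] [Finite G] {Q : Subgroup G} {z b : G}
    (h : LargeExtra.CentralInvolution Q z) (hb : b ∈ Q) (hb1 : b ≠ 1) (hbz : b ≠ z) :
    Nat.card ↥(Q ⊓ Subgroup.centralizer ({b} : Set G)) * 2 = Nat.card Q := by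
  haveI : Fact (Nat.Prime 2) := ⟨Nat.prime_two⟩
  have hnc : (⟨b, hb⟩ : Q) ∉ Subgroup.center Q := fun hc => by
    rcases h.eq_of_mem hc with e | e
    · exact hb1 e
    · exact hbz e
  have hidx := Cfsg.Agent.PGroup.extraspecial_index_centralizer h.extra hnc
  have e : (Subgroup.centralizer ({b} : Set G)).subgroupOf Q = Subgroup.centralizer ({⟨b, hb⟩} : Set Q) := by
    ext x
    rw [Subgroup.mem_subgroupOf, Subgroup.mem_centralizer_singleton_iff, Subgroup.mem_centralizer_singleton_iff,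
      Subtype.ext_iff]
    rfl
  have h1 := Subgroup.card_mul_index ((Subgroup.centralizer ({b} : Set G)).subgroupOf Q)
  rw [e, hidx, ← e] at h1
  rw [← h1, ← Subgroup.inf_subgroupOf_left]
  rw [Nat.card_congr (Subgroup.subgroupOfEquivOfLe inf_le_left).toEquiv]

namespace MSetting

variable {G : Type*} [Group G] [Finite G] {z : G} {Q : Subgroup (Subgroup.centralizer ({z} : Set G))} [Q.Normal]
  {e : (Subgroup.centralizer ({z} : Set G)) ⧸ Q ≃* Spor.Co1} {ψ : leechLattice → Q ⧸ Subgroup.center Q}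
  (S : MSetting z Q e ψ)
include S

theorem pair {g : G} (hs : g * z * g⁻¹ ∈ amb Q) (hne : g * z * g⁻¹ ≠ z) :
    LargeExtra.PairData (amb Q) ((amb Q).map (MulAut.conj g).toMonoidHom) z (g * z * g⁻¹) := by
  have hcard : Nat.card ↥(amb Q) = 2 ^ (2 * 12 + 1) := S.card_amb
  exact LargeExtra.pairData_of_large
    (LargeExtra.isLarge_of_conj S.ci S.facts.2.1 S.norm_le (w := 12) (by norm_num) hcard hs hne) S.ci.center_eq
    (w := 12) (by norm_num) hcard
    (fun hg => hne (mul_inv_eq_iff_eq_mul.2 (Subgroup.mem_centralizer_singleton_iff.1 hg))) hs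

/-- The map of `Co0` onto the centraliser of `z` modulo `Q`. -/
noncomputable def proj (_ : MSetting z Q e ψ) : Co0 →* (Subgroup.centralizer ({z} : Set G)) ⧸ Q :=
  e.symm.toMonoidHom.comp (QuotientGroup.mk' (Subgroup.center Co0))

theorem proj_eq_iff {g : Co0} {c : Subgroup.centralizer ({z} : Set G)} :
    S.proj g = QuotientGroup.mk c ↔ S.Matches g c := e.symm_apply_eq

theorem proj_surjective : Function.Surjective S.proj := by
  intro y
  obtain ⟨c, rfl⟩ := QuotientGroup.mk_surjective y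
  obtain ⟨g, hg⟩ := S.exists_matches_right c
  exact ⟨g, S.proj_eq_iff.2 hg⟩

theorem card_ker_proj : Nat.card S.proj.ker = 2 := by
  rw [← card_center_Co0]
  congr 2
  rw [proj]
  ext g
  simp [MonoidHom.mem_ker]

theorem card_comap_proj (H : Subgroup ((Subgroup.centralizer ({z} : Set G)) ⧸ Q)) :
    Nat.card ↥(H.comap S.proj) = 2 * Nat.card H := by
  haveI := finite_Co0
  have h1 := Subgroup.card_mul_index (H.comap S.proj)
  rw [H.index_comap_of_surjective S.proj_surjective] at h1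
  have h2 := Subgroup.card_mul_index S.proj.ker
  rw [Subgroup.index_ker, MonoidHom.range_eq_top.2 S.proj_surjective,
    Nat.card_congr Subgroup.topEquiv.toEquiv, S.card_ker_proj, ← Subgroup.card_mul_index H, ← mul_assoc] at h2
  exact Nat.eq_of_mul_eq_mul_right (Nat.pos_of_ne_zero Subgroup.FiniteIndex.index_ne_zero) (h1.trans h2.symm)

omit S in
/-- The image of the centraliser of `s` in the centraliser of `z`. -/
abbrev stabImage (Q : Subgroup (Subgroup.centralizer ({z} : Set G))) [Q.Normal] (s : G) :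
    Subgroup ((Subgroup.centralizer ({z} : Set G)) ⧸ Q) :=
  ((Subgroup.centralizer ({z} : Set G) ⊓ Subgroup.centralizer ({s} : Set G)).subgroupOf
    (Subgroup.centralizer ({z} : Set G))).map (QuotientGroup.mk' Q)

omit S in
/-- The image of the part of the conjugate of `Q` in the centraliser of `z`. -/
abbrev conjImage (Q : Subgroup (Subgroup.centralizer ({z} : Set G))) [Q.Normal] (g : G) :
    Subgroup ((Subgroup.centralizer ({z} : Set G)) ⧸ Q) :=
  (((amb Q).map (MulAut.conj g).toMonoidHom ⊓ Subgroup.centralizer ({z} : Set G)).subgroupOf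
    (Subgroup.centralizer ({z} : Set G))).map (QuotientGroup.mk' Q)

theorem comap_stabImage {s : G} {v : leechLattice} (hv : Rep ψ v s) (h1 : s ≠ 1) (hz : s ≠ z) :
    (stabImage Q s).comap S.proj = classStab v := by
  ext g
  constructor
  · rintro ⟨c, hc, e'⟩
    have hm : S.Matches g c := S.proj_eq_iff.1 e'.symm
    have h := S.rep_conj hm hv
    have hcs : (c : G) * s * (c : G)⁻¹ = s :=
      mul_inv_eq_iff_eq_mul.2 (Subgroup.mem_centralizer_singleton_iff.1 hc.2)
    rw [hcs] at h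
    exact mem_classStab.2 (S.rep_cong h hv)
  · intro hg
    obtain ⟨c, hm⟩ := S.exists_matches_left g
    rcases S.rep_pair (S.rep_conj hm hv) hv (mem_classStab.1 hg) with r | r
    · refine ⟨c, ⟨c.2, Subgroup.mem_centralizer_singleton_iff.2 ?_⟩, (S.proj_eq_iff.2 hm).symm⟩
      exact mul_inv_eq_iff_eq_mul.1 r.symm
    · obtain ⟨q, hq, hqs⟩ := S.ci.exists_swap (rep_mem hv) h1 hz
      obtain ⟨q, hq', rfl⟩ := hq
      refine ⟨q * c, ⟨(q * c).2, Subgroup.mem_centralizer_singleton_iff.2 (mul_inv_eq_iff_eq_mul.1 ?_)⟩, ?_⟩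
      · have hr : (c : G) * s * (c : G)⁻¹ = s * z := by
          calc (c : G) * s * (c : G)⁻¹ = (c : G) * s * (c : G)⁻¹ * z * z := by rw [mul_assoc _ z z, S.ci.sq, mul_one]
            _ = s * z := by rw [← r]
        calc ((q * c : Subgroup.centralizer ({z} : Set G)) : G) * s * ((q * c : Subgroup.centralizer ({z} : Set G)) : G)⁻¹
            = (q : G) * ((c : G) * s * (c : G)⁻¹) * (q : G)⁻¹ := by simp only [Subgroup.coe_mul]; group
          _ = ((q : G) * s * (q : G)⁻¹) * ((q : G) * z * (q : G)⁻¹) := by rw [hr]; group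
          _ = s * z * z := by
            rw [show (q : G) * s * (q : G)⁻¹ = s * z from hqs,
              S.ci.comm (q : G) ⟨q, hq', rfl⟩, mul_inv_cancel_right]
          _ = s := by rw [mul_assoc, S.ci.sq, mul_one]
      · rw [(S.proj_eq_iff.2 hm), QuotientGroup.mk'_apply, QuotientGroup.mk_mul,
          (QuotientGroup.eq_one_iff q).2 hq', one_mul]

theorem conjImage_le {g : G} (hs : g * z * g⁻¹ ∈ amb Q) (hne : g * z * g⁻¹ ≠ z) :
    conjImage Q g ≤ stabImage Q (g * z * g⁻¹) :=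
  Subgroup.map_mono fun c hc => ⟨c.2, (S.pair hs hne).hQ'.le_centralizer hc.1⟩

theorem stabImage_normalizes {g : G} (hs : g * z * g⁻¹ ∈ amb Q) (hne : g * z * g⁻¹ ≠ z) :
    stabImage Q (g * z * g⁻¹) ≤ Subgroup.normalizer (conjImage Q g : Set _) := by
  rintro _ ⟨c, hc, rfl⟩
  refine Subgroup.le_normalizer_map _ ⟨c, Subgroup.mem_normalizer_iff.2 fun x => ?_, rfl⟩
  have hn := Subgroup.mem_normalizer_iff.1 ((S.pair hs hne).hL3' hc.2) (x : G)
  exact ⟨fun hx => ⟨hn.1 hx.1, (c * x * c⁻¹).2⟩, fun hx => ⟨hn.2 hx.1, x.2⟩⟩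

theorem card_conjImage_mul {g : G} (hs : g * z * g⁻¹ ∈ amb Q) (hne : g * z * g⁻¹ ≠ z) :
    Nat.card (conjImage Q g) * Nat.card ↥(amb Q ⊓ (amb Q).map (MulAut.conj g).toMonoidHom) = 2 ^ 24 := by
  have D := S.pair hs hne
  set A' := (amb Q).map (MulAut.conj g).toMonoidHom with hA'
  have hcardA' : Nat.card ↥A' = 2 ^ 25 := by
    rw [hA', ← Nat.card_congr
      ((amb Q).equivMapOfInjective (MulAut.conj g).toMonoidHom (MulAut.conj g).injective).toEquiv, S.card_amb]
  have hB : Nat.card ↥(A' ⊓ Subgroup.centralizer ({z} : Set G)) * 2 = 2 ^ 25 := by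
    rw [← hcardA']
    exact card_inf_centralizer D.hQ' D.hz S.ci.ne_one (fun h => hne h.symm)
  set B := (A' ⊓ Subgroup.centralizer ({z} : Set G)).subgroupOf (Subgroup.centralizer ({z} : Set G)) with hBdef
  let f : B →* Subgroup.centralizer ({z} : Set G) ⧸ Q := (QuotientGroup.mk' Q).comp B.subtype
  have hr : f.range = conjImage Q g := by
    rw [MonoidHom.range_comp, Subgroup.range_subtype]
  have h1 := Subgroup.card_mul_index f.ker
  rw [Subgroup.index_ker, hr, Nat.card_congr (Subgroup.subgroupOfEquivOfLe inf_le_right).toEquiv] at h1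
  have hk : Nat.card f.ker = Nat.card ↥(amb Q ⊓ A') := by
    refine Nat.card_congr
      { toFun := fun y => ⟨((y.1 : Subgroup.centralizer ({z} : Set G)) : G), ⟨_, (QuotientGroup.eq_one_iff _).1 y.2, rfl⟩, y.1.2.1⟩
        invFun := fun x => ⟨⟨⟨x.1, S.ci.le_centralizer x.2.1⟩, x.2.2, S.ci.le_centralizer x.2.1⟩,
          (QuotientGroup.eq_one_iff _).2 ?_⟩
        left_inv := fun y => rfl
        right_inv := fun x => rfl }
    obtain ⟨q, hq, e'⟩ := x.2.1
    exact (show q = ⟨x.1, S.ci.le_centralizer x.2.1⟩ from Subtype.ext e') ▸ hq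
  rw [hk] at h1
  linarith [h1, hB]

theorem card_inter_le {g : G} (hs : g * z * g⁻¹ ∈ amb Q) (hne : g * z * g⁻¹ ≠ z) :
    Nat.card ↥(amb Q ⊓ (amb Q).map (MulAut.conj g).toMonoidHom) ≤ 2 ^ 13 := by
  have D := S.pair hs hne
  haveI : Fact (Nat.Prime 2) := ⟨Nat.prime_two⟩
  set A := amb Q with hA
  set I := A ⊓ A.map (MulAut.conj g).toMonoidHom with hI
  have hcomm : IsMulCommutative ↥I := D.elementary.1
  have hc : IsMulCommutative ↥(I.subgroupOf A) := ⟨⟨fun x y => Subtype.ext (Subtype.ext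
    (congrArg (fun w : ↥I => (w : G)) (hcomm.is_comm.comm ⟨((x.1 : ↥A) : G), x.2⟩ ⟨((y.1 : ↥A) : G), y.2⟩)))⟩⟩
  have h := Cfsg.Agent.PGroup.extraspecial_card_abelian_le (n := 12) S.ci.extra S.card_amb hc
  rwa [Nat.card_congr (Subgroup.subgroupOfEquivOfLe inf_le_left).toEquiv] at h

/-- The lift of the conjugate part of `Q` to `Co0`. -/
noncomputable abbrev conjLift (S : MSetting z Q e ψ) (g : G) : Subgroup Co0 := (conjImage Q g).comap S.proj

theorem card_conjLift {g : G} (hs : g * z * g⁻¹ ∈ amb Q) (hne : g * z * g⁻¹ ≠ z) :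
    2 ^ 12 ≤ Nat.card (S.conjLift g) ∧ IsPGroup 2 (S.conjLift g) := by
  haveI : Fact (Nat.Prime 2) := ⟨Nat.prime_two⟩
  have h1 := S.card_conjImage_mul hs hne
  have h2 := S.card_inter_le hs hne
  rw [S.card_comap_proj]
  constructor
  · have h3 : 2 ^ 24 ≤ Nat.card (conjImage Q g) * 2 ^ 13 := h1 ▸ Nat.mul_le_mul_left _ h2
    omega
  · obtain ⟨k, -, hk⟩ := (Nat.dvd_prime_pow Nat.prime_two).1 ⟨_, h1.symm⟩
    refine IsPGroup.of_card (n := k + 1) ?_
    rw [S.card_comap_proj, hk, pow_succ']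

theorem conjLift_le {g : G} (hs : g * z * g⁻¹ ∈ amb Q) (hne : g * z * g⁻¹ ≠ z) {v : leechLattice}
    (hv : Rep ψ v (g * z * g⁻¹)) :
    S.conjLift g ≤ classStab v ∧ classStab v ≤ Subgroup.normalizer (S.conjLift g : Set Co0) := by
  rw [← S.comap_stabImage hv (S.pair hs hne).hQ'.ne_one hne]
  exact ⟨Subgroup.comap_mono (S.conjImage_le hs hne),
    (Subgroup.comap_mono (S.stabImage_normalizes hs hne)).trans (Subgroup.le_normalizer_comap _)⟩

omit S in
/-- Moving back to a standard vector. -/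
theorem transport {h : Co0} {u v : leechLattice} (huv : h • u = v) {N : Subgroup Co0} (hle : N ≤ classStab v)
    (hn : classStab v ≤ Subgroup.normalizer (N : Set Co0)) :
    N.map (MulAut.conj h⁻¹).toMonoidHom ≤ classStab u ∧
      classStab u ≤ Subgroup.normalizer ((N.map (MulAut.conj h⁻¹).toMonoidHom : Subgroup Co0) : Set Co0) := by
  subst huv
  constructor
  · rintro _ ⟨x, hx, rfl⟩
    show h⁻¹ * x * h⁻¹⁻¹ ∈ classStab u
    rw [inv_inv]
    exact classStab_smul.1 (hle hx)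
  · intro x hx
    refine Subgroup.le_normalizer_map _ ⟨h * x * h⁻¹, hn (classStab_smul.2 ?_), ?_⟩
    · simpa [mul_assoc] using hx
    · show h⁻¹ * (h * x * h⁻¹) * h⁻¹⁻¹ = x
      group

omit S in
theorem card_transport (h : Co0) (N : Subgroup Co0) :
    Nat.card ↥(N.map (MulAut.conj h⁻¹).toMonoidHom) = Nat.card N :=
  (Nat.card_congr (N.equivMapOfInjective _ (MulAut.conj h⁻¹).injective).toEquiv).symm

theorem conjugate_norm {g : G} (hs : g * z * g⁻¹ ∈ amb Q) (hne : g * z * g⁻¹ ≠ z) :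
    HasNorm ψ 64 (g * z * g⁻¹) := by
  have D := S.pair hs hne
  rcases S.involution_norm hs D.hQ'.sq D.hQ'.ne_one hne with ⟨v, hv, hr⟩ | h
  · exfalso
    haveI := finite_Co0
    obtain ⟨hle, hn⟩ := S.conjLift_le hs hne hr
    obtain ⟨h, hh⟩ := exists_smul_eq_of_conj (conj32 Spor.leechU.2 sqNorm_leechU) (conj32 v.2 hv)
    obtain ⟨hle', hn'⟩ := transport hh hle hn
    obtain ⟨hc, hp⟩ := S.card_conjLift hs hne
    have := Subgroup.card_le_of_le (le_uSigns_of_normal (hp.map _) hle' hn')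
    rw [card_transport, card_uSigns] at this
    omega
  · exact h

/-- The data of a conjugate of `z` in `Q`. -/
theorem conjugate_shape {g : G} (hs : g * z * g⁻¹ ∈ amb Q) (hne : g * z * g⁻¹ ≠ z) :
    ∃ h : Co0, S.conjLift g = signs.map (MulAut.conj h).toMonoidHom ∧
      (stabImage Q (g * z * g⁻¹)).comap S.proj = crossStab.map (MulAut.conj h).toMonoidHom := by
  haveI := finite_Co0
  obtain ⟨v, hv, hr⟩ := S.conjugate_norm hs hne
  obtain ⟨hle, hn⟩ := S.conjLift_le hs hne hr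
  obtain ⟨h, hh⟩ := exists_smul_eq_of_conj (conj64 (crossL none).2 (sqNorm_cross none)) (conj64 v.2 hv)
  obtain ⟨hle', hn'⟩ := transport hh hle hn
  obtain ⟨hc, hp⟩ := S.card_conjLift hs hne
  have heq := Subgroup.eq_of_le_of_card_ge (le_signs_of_normal (hp.map _) hle' hn')
    (by rw [card_signs_all, card_transport]; exact hc)
  refine ⟨h, ?_, ?_⟩
  · rw [← heq, Subgroup.map_map]
    ext x
    simp [Subgroup.mem_map, mul_assoc]
  · rw [S.comap_stabImage hr (S.pair hs hne).hQ'.ne_one hne, ← hh]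
    ext x
    rw [classStab_smul]
    constructor
    · intro hx
      exact ⟨_, hx, by simp [mul_assoc]⟩
    · rintro ⟨y, hy, rfl⟩
      simpa [mul_assoc] using hy

theorem card_inter {g : G} (hs : g * z * g⁻¹ ∈ amb Q) (hne : g * z * g⁻¹ ≠ z) :
    Nat.card ↥(amb Q ⊓ (amb Q).map (MulAut.conj g).toMonoidHom) = 2 ^ 13 ∧
      Nat.card (conjImage Q g) = 2 ^ 11 := by
  obtain ⟨h, hh, -⟩ := S.conjugate_shape hs hne
  have h1 : Nat.card (S.conjLift g) = 4096 := by
    rw [hh, ← Nat.card_congr (signs.equivMapOfInjective _ (MulAut.conj h).injective).toEquiv, card_signs_all]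
  rw [S.card_comap_proj] at h1
  have h2 := S.card_conjImage_mul hs hne
  rw [show Nat.card (conjImage Q g) = 2048 by omega] at h2
  omega

/-- The complement. -/
noncomputable def mathieuHom (h : Co0) : M24 →* (Subgroup.centralizer ({z} : Set G)) ⧸ Q :=
  S.proj.comp ((MulAut.conj h).toMonoidHom.comp permLift)

theorem stabiliser_split {g : G} (hs : g * z * g⁻¹ ∈ amb Q) (hne : g * z * g⁻¹ ≠ z) :
    IsElementaryAbelian 2 (conjImage Q g) ∧ ∃ K : Subgroup ((Subgroup.centralizer ({z} : Set G)) ⧸ Q),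
      K ≤ stabImage Q (g * z * g⁻¹) ∧ conjImage Q g ⊓ K = ⊥ ∧ conjImage Q g ⊔ K = stabImage Q (g * z * g⁻¹) ∧
      Nonempty (K ≃* M24) := by
  obtain ⟨h, hE, hX⟩ := S.conjugate_shape hs hne
  have memE : ∀ {a : Co0}, S.proj a ∈ conjImage Q g ↔ h⁻¹ * a * h ∈ signs := by
    intro a
    refine (SetLike.ext_iff.1 hE a).trans ?_
    rw [Subgroup.mem_map_equiv]
    simp
  have memX : ∀ {a : Co0}, S.proj a ∈ stabImage Q (g * z * g⁻¹) ↔ h⁻¹ * a * h ∈ crossStab := by
    intro a
    refine (SetLike.ext_iff.1 hX a).trans ?_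
    rw [Subgroup.mem_map_equiv]
    simp
  have conj_eq : ∀ a : Co0, S.proj a = S.proj (h * (h⁻¹ * a * h) * h⁻¹) := fun a => by congr 1; group
  have key : ∀ {σ : M24}, S.mathieuHom h σ ∈ conjImage Q g → σ = 1 := by
    intro σ hσ
    refine eq_one_of_permLift_mem ?_
    have := memE.1 (show S.proj (h * permLift σ * h⁻¹) ∈ _ from hσ)
    simpa [mul_assoc] using this
  refine ⟨⟨⟨⟨fun x y => Subtype.ext ?_⟩⟩, fun x hx => ?_⟩, (S.mathieuHom h).range, ?_, ?_, ?_, ?_⟩
  · obtain ⟨a, ha⟩ := S.proj_surjective x.1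
    obtain ⟨b, hb⟩ := S.proj_surjective y.1
    show x.1 * y.1 = y.1 * x.1
    have e1 := (signs_comm (memE.1 (ha ▸ x.2)) (memE.1 (hb ▸ y.2))).1
    rw [← ha, ← hb, conj_eq a, conj_eq b, ← map_mul, ← map_mul]
    congr 1
    calc h * (h⁻¹ * a * h) * h⁻¹ * (h * (h⁻¹ * b * h) * h⁻¹) = h * ((h⁻¹ * a * h) * (h⁻¹ * b * h)) * h⁻¹ := by group
      _ = _ := by rw [e1]; group
  · obtain ⟨a, rfl⟩ := S.proj_surjective x
    rw [pow_two, conj_eq a, ← map_mul]
    refine (congrArg S.proj ?_).trans (map_one _)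
    calc h * (h⁻¹ * a * h) * h⁻¹ * (h * (h⁻¹ * a * h) * h⁻¹) = h * ((h⁻¹ * a * h) * (h⁻¹ * a * h)) * h⁻¹ := by group
      _ = 1 := by rw [(signs_comm (memE.1 hx) (memE.1 hx)).2]; group
  · rintro _ ⟨σ, rfl⟩
    refine (memX (a := h * permLift σ * h⁻¹)).2 ?_
    simpa [mul_assoc] using permLift_mem σ
  · refine (Subgroup.eq_bot_iff_forall _).2 ?_
    rintro x ⟨hx, σ, rfl⟩
    rw [key hx, map_one]
  · refine le_antisymm (sup_le (S.conjImage_le hs hne) ?_) fun x hx => ?_
    · rintro _ ⟨σ, rfl⟩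
      refine (memX (a := h * permLift σ * h⁻¹)).2 ?_
      simpa [mul_assoc] using permLift_mem σ
    · obtain ⟨a, rfl⟩ := S.proj_surjective x
      set b : crossStab := ⟨h⁻¹ * a * h, memX.1 hx⟩
      set σ : M24 := ⟨permHom b, (crossStab_monomial b).1⟩
      have hs' : h⁻¹ * a * h * (permLift σ)⁻¹ ∈ signs := by
        refine ⟨b * ⟨permLift σ, permLift_mem σ⟩⁻¹, MonoidHom.mem_ker.2 ?_, rfl⟩
        rw [map_mul, map_inv, permHom_permLift, mul_inv_cancel]
      have e' : S.proj a = S.proj (h * (h⁻¹ * a * h * (permLift σ)⁻¹) * h⁻¹) * S.mathieuHom h σ := by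
        rw [show S.mathieuHom h σ = S.proj (h * permLift σ * h⁻¹) from rfl, ← map_mul]
        congr 1
        group
      rw [e']
      refine Subgroup.mul_mem_sup ((memE).2 ?_) ⟨σ, rfl⟩
      simpa [mul_assoc] using hs'
  · exact ⟨(MonoidHom.ofInjective ((injective_iff_map_eq_one _).2 fun σ hσ => key (by
      rw [hσ]; exact one_mem _))).symm⟩

end MSetting

end Cfsg.Agent.Monster

namespace Cfsg.Agent.Monster.MSetting

open Cfsg

variable {G : Type*} [Group G] [Finite G] {z : G} {Q : Subgroup (Subgroup.centralizer ({z} : Set G))} [Q.Normal]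
  {e : (Subgroup.centralizer ({z} : Set G)) ⧸ Q ≃* Spor.Co1} {ψ : leechLattice → Q ⧸ Subgroup.center Q}
  (S : MSetting z Q e ψ)
include S

theorem exists_conjugate : ∃ g : G, g * z * g⁻¹ ∈ amb Q ∧ g * z * g⁻¹ ≠ z := by
  obtain ⟨-, -, -, -, g, ⟨hc, hq⟩, hne⟩ := S.setting
  exact ⟨g, ⟨_, hq, rfl⟩, hne⟩

theorem isConj_iff_norm {x : G} (hx : x ∈ amb Q) : IsConj z x ∧ x ≠ z ↔ HasNorm ψ 64 x := by
  constructor
  · rintro ⟨hc, hne⟩
    obtain ⟨g, rfl⟩ := isConj_iff.1 hc
    exact S.conjugate_norm hx hne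
  · intro h
    refine ⟨?_, (S.norm_not_central (by norm_num) le_rfl h).2⟩
    obtain ⟨g, hg, hne⟩ := S.exists_conjugate
    obtain ⟨c, -, hc⟩ := S.hasNorm_conj (Or.inr (Or.inr rfl)) (S.conjugate_norm hg hne) h
    exact (isConj_iff.2 ⟨g, rfl⟩).trans (isConj_iff.2 ⟨c, hc⟩)

theorem noncentral_norm {x : G} (hx : x ∈ amb Q) (h2 : x * x = 1) (h1 : x ≠ 1) (hc : ¬ IsConj z x) :
    HasNorm ψ 32 x :=
  (S.involution_norm hx h2 h1 fun e => hc (e ▸ IsConj.refl z)).resolve_right fun h =>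
    hc ((S.isConj_iff_norm hx).2 h).1

end Cfsg.Agent.Monster.MSetting
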